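import Mathlib
import Cfsg.Agent.Lib.Helper14.ExcIso

/-! Lifting a representation to a subquotient. -/

set_option autoImplicit false

namespace Cfsg.Agent.Lib.Helper14

open Cfsg.Agent.Lib.Helper44

section lift

variable {F V W A : Type*} [Field F] [AddCommGroup V] [Module F V] [AddCommGroup W] [Module F W]
  [Group A]

/-- Pull back a representation on `W` to a stable subquotient parametrised by `e` modulo `U`. -/
noncomputable def liftFunM (e : V →ₗ[F] W) (U : Submodule F W) (T : A →* (W ≃ₗ[F] W))
    (hT : ∀ a v, ∃ v', e v' - T a (e v) ∈ U) (a : A) (v : V) : V := Classical.choose (hT a v)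

theorem liftFunM_spec (e : V →ₗ[F] W) (U : Submodule F W) (T : A →* (W ≃ₗ[F] W))
    (hT : ∀ a v, ∃ v', e v' - T a (e v) ∈ U) (a : A) (v : V) :
    e (liftFunM e U T hT a v) - T a (e v) ∈ U := Classical.choose_spec (hT a v)

theorem eq_of_sub_mem (e : V →ₗ[F] W) (U : Submodule F W) (he : ∀ x, e x ∈ U → x = 0) (x y : V)
    (h : e x - e y ∈ U) : x = y := by
  rw [← map_sub] at h
  exact sub_eq_zero.mp (he _ h)

noncomputable def liftRepM (e : V →ₗ[F] W) (U : Submodule F W) (he : ∀ x, e x ∈ U → x = 0)
    (T : A →* (W ≃ₗ[F] W)) (hU : ∀ a u, u ∈ U → T a u ∈ U)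
    (hT : ∀ a v, ∃ v', e v' - T a (e v) ∈ U) : A →* (V ≃ₗ[F] V) where
  toFun a :=
    { toFun := liftFunM e U T hT a
      map_add' := fun x y => eq_of_sub_mem e U he _ _ (by
        have h1 := liftFunM_spec e U T hT a (x + y)
        have h2 := liftFunM_spec e U T hT a x
        have h3 := liftFunM_spec e U T hT a y
        have := U.sub_mem (U.sub_mem h1 h2) h3
        convert this using 1
        simp only [map_add]
        abel)
      map_smul' := fun c x => eq_of_sub_mem e U he _ _ (by
        have h1 := liftFunM_spec e U T hT a (c • x)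
        have h2 := U.smul_mem c (liftFunM_spec e U T hT a x)
        have := U.sub_mem h1 h2
        convert this using 1
        simp only [map_smul, RingHom.id_apply, smul_sub]
        abel)
      invFun := liftFunM e U T hT a⁻¹
      left_inv := fun x => eq_of_sub_mem e U he _ _ (by
        have h1 := liftFunM_spec e U T hT a⁻¹ (liftFunM e U T hT a x)
        have h2 := hU a⁻¹ _ (liftFunM_spec e U T hT a x)
        have := U.add_mem h1 h2
        convert this using 1
        rw [map_sub, ← LinearEquiv.mul_apply, ← map_mul, inv_mul_cancel, map_one,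
          LinearEquiv.coe_one, id]
        abel)
      right_inv := fun x => eq_of_sub_mem e U he _ _ (by
        have h1 := liftFunM_spec e U T hT a (liftFunM e U T hT a⁻¹ x)
        have h2 := hU a _ (liftFunM_spec e U T hT a⁻¹ x)
        have := U.add_mem h1 h2
        convert this using 1
        rw [map_sub, ← LinearEquiv.mul_apply, ← map_mul, mul_inv_cancel, map_one,
          LinearEquiv.coe_one, id]
        abel) }
  map_one' := by
    ext x
    apply eq_of_sub_mem e U he
    have h1 := liftFunM_spec e U T hT 1 x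
    rw [map_one, LinearEquiv.coe_one, id] at h1
    exact h1
  map_mul' a b := by
    ext x
    apply eq_of_sub_mem e U he
    show e (liftFunM e U T hT (a * b) x) - e (liftFunM e U T hT a (liftFunM e U T hT b x)) ∈ U
    have h1 := liftFunM_spec e U T hT (a * b) x
    have h2 := liftFunM_spec e U T hT a (liftFunM e U T hT b x)
    have h3 := hU a _ (liftFunM_spec e U T hT b x)
    have := U.sub_mem (U.sub_mem h1 h2) h3
    convert this using 1
    rw [map_sub, map_mul, LinearEquiv.mul_apply]
    abel

theorem liftRepM_spec (e : V →ₗ[F] W) (U : Submodule F W) (he : ∀ x, e x ∈ U → x = 0)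
    (T : A →* (W ≃ₗ[F] W)) (hU : ∀ a u, u ∈ U → T a u ∈ U)
    (hT : ∀ a v, ∃ v', e v' - T a (e v) ∈ U) (a : A) (v : V) :
    e (liftRepM e U he T hU hT a v) - T a (e v) ∈ U := liftFunM_spec e U T hT a v

/-- The lifted representation as a homomorphism to the orthogonal group. -/
noncomputable def liftOQM (Q : QuadraticForm F V) (e : V →ₗ[F] W) (U : Submodule F W)
    (he : ∀ x, e x ∈ U → x = 0) (T : A →* (W ≃ₗ[F] W)) (hU : ∀ a u, u ∈ U → T a u ∈ U)
    (hT : ∀ a v, ∃ v', e v' - T a (e v) ∈ U) (N : W → F)
    (hN : ∀ v, N (e v) = Q v) (hNU : ∀ v u, u ∈ U → N (e v - u) = N (e v))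
    (hNT : ∀ a w, N (T a w) = N w) : A →* OQ Q :=
  (liftRepM e U he T hU hT).codRestrict (OQ Q) (fun a => by
    intro v
    have h := liftRepM_spec e U he T hU hT a v
    rw [← hN, ← hNU _ _ h, sub_sub_cancel, hNT, hN])

theorem liftOQM_eq_one_iff (Q : QuadraticForm F V) (e : V →ₗ[F] W) (U : Submodule F W)
    (he : ∀ x, e x ∈ U → x = 0) (T : A →* (W ≃ₗ[F] W)) (hU : ∀ a u, u ∈ U → T a u ∈ U)
    (hT : ∀ a v, ∃ v', e v' - T a (e v) ∈ U) (N : W → F)
    (hN : ∀ v, N (e v) = Q v) (hNU : ∀ v u, u ∈ U → N (e v - u) = N (e v))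
    (hNT : ∀ a w, N (T a w) = N w) (a : A) :
    liftOQM Q e U he T hU hT N hN hNU hNT a = 1 ↔ ∀ v, e v - T a (e v) ∈ U := by
  constructor
  · intro h v
    have h1 := liftRepM_spec e U he T hU hT a v
    have h2 : liftRepM e U he T hU hT a = 1 := congrArg Subtype.val h
    rw [h2] at h1
    exact h1
  · intro h
    apply Subtype.ext
    ext v
    apply eq_of_sub_mem e U he
    have h1 := liftRepM_spec e U he T hU hT a v
    have := U.sub_mem h1 (h v)
    convert this using 1
    show _ = e (liftRepM e U he T hU hT a v) - _ - _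
    simp
    rfl

end lift

/-- The permutation representation. -/
def permRep (n : ℕ) (F : Type*) [Field F] :
    Equiv.Perm (Fin n) →* ((Fin n → F) ≃ₗ[F] (Fin n → F)) where
  toFun σ := LinearEquiv.funCongrLeft F F σ.symm
  map_one' := by
    ext w i
    simp [LinearEquiv.funCongrLeft]
    rfl
  map_mul' a b := by
    ext w i
    simp [LinearEquiv.funCongrLeft, LinearMap.funLeft]
    rfl

theorem permRep_apply (n : ℕ) (F : Type*) [Field F] (σ : Equiv.Perm (Fin n)) (w : Fin n → F)
    (i : Fin n) : permRep n F σ w i = w (σ.symm i) := rfl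

end Cfsg.Agent.Lib.Helper14
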