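import Mathlib
import Cfsg.Agent.Lib.Helper14.ExcIsoMod
import Cfsg.Agent.Lib.Helper14.Omega5
import Cfsg.Agent.Lib.Helper44.StdForms
import Cfsg.Agent.S2623

/-! `A₅ → Ω₄⁺(q)` when `5` is a square. -/

set_option autoImplicit false

namespace Cfsg.Agent.Lib.Helper14

open Cfsg.Agent.Lib.Helper44 QuadraticMap

theorem zmod5_neg_one : (-1 : ZMod 5) = 2 ^ 2 := by decide

theorem zmod5_two_ne : (2 : ZMod 5) ≠ 0 := by decide

theorem isSquare_five {F : Type*} [Field F] [Fintype F] (hodd : Fintype.card F % 2 = 1)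
    (h5 : Fintype.card F % 5 = 1 ∨ Fintype.card F % 5 = 4) : IsSquare (5 : F) := by
  have hF : ringChar F ≠ 2 := by
    intro h
    have := FiniteField.even_card_of_char_two h
    omega
  have : Fact (Nat.Prime 5) := ⟨by norm_num⟩
  have key := (FiniteField.isSquare_odd_prime_iff hF (p := 5) (by norm_num)).mpr
  have e5 : ((5 : ℕ) : F) = 5 := by norm_num
  rw [e5] at key
  apply key
  set q := Fintype.card F
  have hq4 : q % 4 = 1 ∨ q % 4 = 3 := by omega
  have hχ : ZMod.χ₄ (q : ZMod 4) = 1 ∨ ZMod.χ₄ (q : ZMod 4) = -1 := by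
    rcases hq4 with h | h
    · left; exact ZMod.χ₄_nat_one_mod_four h
    · right; exact ZMod.χ₄_nat_three_mod_four h
  have hq5 : (q : ZMod 5) = 1 ∨ (q : ZMod 5) = -1 := by
    rcases h5 with h | h
    · left
      have : (q : ZMod 5) = ((q % 5 : ℕ) : ZMod 5) := by simp
      rw [this, h]; rfl
    · right
      have : (q : ZMod 5) = ((q % 5 : ℕ) : ZMod 5) := by simp
      rw [this, h]; rfl
  have c1 : quadraticChar (ZMod 5) 1 ≠ -1 := by
    rw [map_one]; norm_num
  have c2 : quadraticChar (ZMod 5) (-1) ≠ -1 := by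
    rw [zmod5_neg_one, quadraticChar_sq_one' zmod5_two_ne]; norm_num
  rcases hχ with h | h <;> rcases hq5 with h' | h' <;> rw [h, h'] <;> simp <;> first | exact c1 | exact c2

section forms

variable {F : Type*} [Field F]

/-- the sum-zero vectors of `F⁵` -/
def b5 : (Fin 4 → F) →ₗ[F] (Fin 5 → F) where
  toFun v := ![v 0, v 1, v 2, v 3, -(v 0 + v 1 + v 2 + v 3)]
  map_add' x y := by
    ext i; fin_cases i <;> simp <;> ring
  map_smul' c x := by
    ext i; fin_cases i <;> simp <;> ring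

theorem b5_apply (v : Fin 4 → F) : b5 v = ![v 0, v 1, v 2, v 3, -(v 0 + v 1 + v 2 + v 3)] := rfl

def N5 (w : Fin 5 → F) : F := ∑ i, w i ^ 2

/-- the form `Σ xᵢ²` on the sum-zero vectors -/
noncomputable def Q2five : QuadraticForm F (Fin 4 → F) :=
  (∑ i : Fin 4, linMulLin (LinearMap.proj i) (LinearMap.proj i)) +
    linMulLin (∑ i : Fin 4, LinearMap.proj i) (∑ i : Fin 4, LinearMap.proj i)

theorem Q2five_apply (v : Fin 4 → F) :
    Q2five v = v 0 ^ 2 + v 1 ^ 2 + v 2 ^ 2 + v 3 ^ 2 + (v 0 + v 1 + v 2 + v 3) ^ 2 := by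
  simp [Q2five, Fin.sum_univ_four]
  ring

theorem N5_b5 (v : Fin 4 → F) : N5 (b5 v) = Q2five v := by
  rw [N5, b5_apply, Q2five_apply]
  simp [Fin.sum_univ_five]
  ring

theorem Q2five_polar (x y : Fin 4 → F) : polar (Q2five (F := F)) x y =
    2 * (x 0 * y 0 + x 1 * y 1 + x 2 * y 2 + x 3 * y 3)
      + 2 * (x 0 + x 1 + x 2 + x 3) * (y 0 + y 1 + y 2 + y 3) := by
  simp only [polar, Q2five_apply, Pi.add_apply]
  ring

theorem Q2five_nondeg (h2 : (2 : F) ≠ 0) (h5 : (5 : F) ≠ 0) :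
    (polarBilin (Q2five (F := F))).Nondegenerate := by
  apply nondeg_of_sep
  intro x hx
  have h0 := hx (Pi.single 0 1)
  have h1 := hx (Pi.single 1 1)
  have h2' := hx (Pi.single 2 1)
  have h3 := hx (Pi.single 3 1)
  rw [Q2five_polar] at h0 h1 h2' h3
  simp at h0 h1 h2' h3
  have hS : x 0 + x 1 + x 2 + x 3 = 0 := by
    have : (2 * 5) * (x 0 + x 1 + x 2 + x 3) = 0 := by linear_combination h0 + h1 + h2' + h3
    exact (mul_eq_zero.mp this).resolve_left (mul_ne_zero h2 h5)
  rw [hS] at h0 h1 h2' h3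
  ext i
  fin_cases i
  · have : 2 * x 0 = 0 := by linear_combination h0
    exact (mul_eq_zero.mp this).resolve_left h2
  · have : 2 * x 1 = 0 := by linear_combination h1
    exact (mul_eq_zero.mp this).resolve_left h2
  · have : 2 * x 2 = 0 := by linear_combination h2'
    exact (mul_eq_zero.mp this).resolve_left h2
  · have : 2 * x 3 = 0 := by linear_combination h3
    exact (mul_eq_zero.mp this).resolve_left h2

theorem Q2five_gram : (Matrix.of (fun i j : Fin 4 =>
    polar (Q2five (F := F)) (Pi.single i 1) (Pi.single j 1))).det = 80 := by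
  have : Matrix.of (fun i j : Fin 4 => polar (Q2five (F := F)) (Pi.single i 1) (Pi.single j 1))
      = !![4, 2, 2, 2; 2, 4, 2, 2; 2, 2, 4, 2; 2, 2, 2, 4] := by
    ext i j
    rw [Matrix.of_apply, Q2five_polar]
    fin_cases i <;> fin_cases j <;> simp <;> norm_num
  rw [this]
  simp [Matrix.det_succ_row_zero, Fin.sum_univ_succ, Fin.succAbove]
  norm_num

/-- the plus form on `F⁴` -/
noncomputable def Q1four : QuadraticForm F (Fin 4 → F) :=
  linMulLin (LinearMap.proj 0) (LinearMap.proj 2) + linMulLin (LinearMap.proj 1) (LinearMap.proj 3)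

theorem Q1four_apply (v : Fin 4 → F) : Q1four v = v 0 * v 2 + v 1 * v 3 := by
  simp [Q1four]

theorem Q1four_polar (x y : Fin 4 → F) : polar (Q1four (F := F)) x y =
    x 0 * y 2 + y 0 * x 2 + x 1 * y 3 + y 1 * x 3 := by
  simp only [polar, Q1four_apply, Pi.add_apply]
  ring

theorem Q1four_nondeg : (polarBilin (Q1four (F := F))).Nondegenerate := by
  apply nondeg_of_sep
  intro x hx
  have h0 := hx (Pi.single 0 1)
  have h1 := hx (Pi.single 1 1)
  have h2' := hx (Pi.single 2 1)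
  have h3 := hx (Pi.single 3 1)
  rw [Q1four_polar] at h0 h1 h2' h3
  simp at h0 h1 h2' h3
  ext i
  fin_cases i
  · exact h2'
  · exact h3
  · exact h0
  · exact h1

theorem Q1four_gram : (Matrix.of (fun i j : Fin 4 =>
    polar (Q1four (F := F)) (Pi.single i 1) (Pi.single j 1))).det = 1 := by
  have : Matrix.of (fun i j : Fin 4 => polar (Q1four (F := F)) (Pi.single i 1) (Pi.single j 1))
      = !![0, 0, 1, 0; 0, 0, 0, 1; 1, 0, 0, 0; 0, 1, 0, 0] := by
    ext i j
    rw [Matrix.of_apply, Q1four_polar]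
    fin_cases i <;> fin_cases j <;> simp
  rw [this]
  simp [Matrix.det_succ_row_zero, Fin.sum_univ_succ, Fin.succAbove]

theorem b5_injective : Function.Injective (b5 (F := F)) := by
  intro x y hxy
  rw [b5_apply, b5_apply] at hxy
  have h0 := congrFun hxy 0
  have h1 := congrFun hxy 1
  have h2 := congrFun hxy 2
  have h3 := congrFun hxy 3
  simp at h0 h1 h2 h3
  ext i
  fin_cases i
  · exact h0
  · exact h1
  · exact h2
  · exact h3

theorem b5_range (w : Fin 5 → F) (hw : ∑ i, w i = 0) : ∃ v, b5 v = w := by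
  refine ⟨![w 0, w 1, w 2, w 3], ?_⟩
  rw [b5_apply]
  rw [Fin.sum_univ_five] at hw
  ext i
  fin_cases i <;> simp
  linear_combination -hw

theorem b5_sum (v : Fin 4 → F) : ∑ i, b5 v i = 0 := by
  rw [b5_apply]
  simp [Fin.sum_univ_five]

theorem N5_perm (σ : Equiv.Perm (Fin 5)) (w : Fin 5 → F) : N5 (permRep 5 F σ w) = N5 w := by
  unfold N5
  simp only [permRep_apply]
  exact Equiv.sum_comp σ.symm (fun i => w i ^ 2)

theorem exists_S5_hom [Fintype F] (h2 : (2 : F) ≠ 0) (h5 : (5 : F) ≠ 0) (hs : IsSquare (5 : F)) :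
    ∃ ρ : Equiv.Perm (Fin 5) →* OQ (plusQF 2 F), Function.Injective ρ := by
  obtain ⟨g, hg⟩ := (Cfsg.Agent.S2623.result h2 (Q1four (F := F)) Q2five Q1four_nondeg
    (Q2five_nondeg h2 h5)).mpr (by
      rw [Q1four_gram, Q2five_gram, one_mul]
      obtain ⟨s, hs⟩ := hs
      exact ⟨4 * s, by linear_combination 16 * hs⟩)
  let r : (Fin 2 ⊕ Fin 2 → F) ≃ₗ[F] (Fin 4 → F) := LinearEquiv.funCongrLeft F F s4.symm
  have hr : ∀ v i, r v i = v (s4.symm i) := fun v i => rfl
  let e : (Fin 2 ⊕ Fin 2 → F) →ₗ[F] (Fin 5 → F) := b5 ∘ₗ g.toLinearMap ∘ₗ r.toLinearMap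
  have he_apply : ∀ v, e v = b5 (g (r v)) := fun v => rfl
  have he : Function.Injective e := b5_injective.comp (g.injective.comp r.injective)
  have hrange : ∀ w : Fin 5 → F, ∑ i, w i = 0 → ∃ v, e v = w := by
    intro w hw
    obtain ⟨v, rfl⟩ := b5_range w hw
    refine ⟨r.symm (g.symm v), ?_⟩
    rw [he_apply]
    simp
  have hN : ∀ v, N5 (e v) = plusQF 2 F v := by
    intro v
    rw [he_apply, N5_b5, hg, Q1four_apply, plusQF_apply, hr, hr, hr, hr, s4_symm_0, s4_symm_1,
      s4_symm_2, s4_symm_3, Fin.sum_univ_two]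
  have hT : ∀ (σ : Equiv.Perm (Fin 5)) v, ∃ v', e v' = permRep 5 F σ (e v) := by
    intro σ v
    apply hrange
    simp only [permRep_apply]
    rw [Equiv.sum_comp σ.symm (fun i => e v i), he_apply]
    exact b5_sum _
  refine ⟨liftOQ (plusQF 2 F) e he (permRep 5 F) hT N5 hN (fun σ v => N5_perm σ _), ?_⟩
  rw [injective_iff_map_eq_one]
  intro σ hσ
  rw [liftOQ_eq_one_iff] at hσ
  have h1 : ∀ w : Fin 5 → F, ∑ i, w i = 0 → permRep 5 F σ w = w := by
    intro w hw
    obtain ⟨v, rfl⟩ := hrange w hw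
    exact hσ v
  apply Equiv.ext
  intro i
  obtain ⟨j, hj⟩ : ∃ j : Fin 5, j ≠ i := by
    revert i; decide
  have h3 := congrFun (h1 (Pi.single i 1 - Pi.single j 1) (by
    simp [Finset.sum_sub_distrib])) (σ i)
  simp [permRep_apply, Pi.single_apply, hj.symm] at h3
  by_contra hne
  have hne' : ¬ (σ i = i) := hne
  simp [hne'] at h3
  split_ifs at h3 with h4
  · apply h2
    linear_combination h3
  · simp at h3

end forms

end Cfsg.Agent.Lib.Helper14
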