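import Mathlib
import Cfsg.Agent.Lib.Helper41.PSL2Trace

/-! The centre of `PSL₂(F)` is trivial. -/

set_option autoImplicit false

namespace Cfsg.Agent.Lib.Helper14

open Cfsg.Agent.Lib.Helper41

variable {F : Type*} [Field F]

local notation "S" => Matrix.SpecialLinearGroup (Fin 2) F
local notation "PS" => Matrix.ProjectiveSpecialLinearGroup (Fin 2) F

theorem psl2_center_eq_bot : Subgroup.center PS = ⊥ := by
  rw [eq_bot_iff]
  intro x hx
  obtain ⟨X, rfl⟩ := QuotientGroup.mk_surjective x
  rw [Subgroup.mem_center_iff] at hx
  rw [Subgroup.mem_bot]
  let t : S := ⟨!![1, 1; 0, 1], by simp [Matrix.det_fin_two]⟩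
  let s : S := ⟨!![1, 0; 1, 1], by simp [Matrix.det_fin_two]⟩
  have ht := hx (QuotientGroup.mk t)
  have hs := hx (QuotientGroup.mk s)
  rw [← QuotientGroup.mk_mul, ← QuotientGroup.mk_mul, psl2_mk_eq_iff] at ht hs
  have hdet := X.det_coe
  rw [Matrix.det_fin_two] at hdet
  have hXeta := Matrix.eta_fin_two (X : Matrix (Fin 2) (Fin 2) F)
  set a := (X : Matrix (Fin 2) (Fin 2) F) 0 0
  set b := (X : Matrix (Fin 2) (Fin 2) F) 0 1
  set c := (X : Matrix (Fin 2) (Fin 2) F) 1 0
  set d := (X : Matrix (Fin 2) (Fin 2) F) 1 1
  have ht1 : (t : Matrix (Fin 2) (Fin 2) F) = !![1, 1; 0, 1] := rfl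
  have hs1 : (s : Matrix (Fin 2) (Fin 2) F) = !![1, 0; 1, 1] := rfl
  simp only [Matrix.SpecialLinearGroup.coe_mul, ht1, hs1, hXeta, Matrix.mul_fin_two] at ht hs
  have key : c = 0 ∧ b = 0 ∧ a = d := by
    by_cases h2 : (2 : F) = 0
    · have hneg : ∀ z : F, -z = z := by
        intro z
        linear_combination (-z) * h2
      have ht' : c = 0 ∧ a = d := by
        rcases ht with h | h
        · have h00 := congrFun (congrFun h 0) 0
          have h01 := congrFun (congrFun h 0) 1
          simp at h00 h01
          exact ⟨h00, by linear_combination h01⟩
        · have h00 := congrFun (congrFun h 0) 0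
          have h01 := congrFun (congrFun h 0) 1
          simp at h00 h01
          refine ⟨by linear_combination h00 - a * h2, by linear_combination h01 - (d + b) * h2⟩
      have hs' : b = 0 := by
        rcases hs with h | h
        · have h00 := congrFun (congrFun h 0) 0
          simp at h00
          exact h00
        · have h00 := congrFun (congrFun h 0) 0
          simp at h00
          linear_combination h00 - a * h2
      exact ⟨ht'.1, hs', ht'.2⟩
    · have ht' : c = 0 ∧ a = d := by
        rcases ht with h | h
        · have h00 := congrFun (congrFun h 0) 0
          have h01 := congrFun (congrFun h 0) 1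
          simp at h00 h01
          exact ⟨h00, by linear_combination h01⟩
        · exfalso
          have h00 := congrFun (congrFun h 0) 0
          have h10 := congrFun (congrFun h 1) 0
          have h11 := congrFun (congrFun h 1) 1
          simp at h00 h10 h11
          have hc : c = 0 := by
            have : 2 * c = 0 := by linear_combination h10
            exact (mul_eq_zero.mp this).resolve_left h2
          have ha : a = 0 := by
            have : 2 * a = 0 := by linear_combination h00 - hc
            exact (mul_eq_zero.mp this).resolve_left h2
          rw [ha, hc] at hdet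
          simp at hdet
      have hs' : b = 0 := by
        rcases hs with h | h
        · have h00 := congrFun (congrFun h 0) 0
          simp at h00
          exact h00
        · exfalso
          have h00 := congrFun (congrFun h 0) 0
          have h01 := congrFun (congrFun h 0) 1
          simp at h00 h01
          have hb : b = 0 := by
            have : 2 * b = 0 := by linear_combination h01
            exact (mul_eq_zero.mp this).resolve_left h2
          have ha : a = 0 := by
            have : 2 * a = 0 := by linear_combination h00 - hb
            exact (mul_eq_zero.mp this).resolve_left h2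
          rw [ha, hb] at hdet
          simp at hdet
      exact ⟨ht'.1, hs', ht'.2⟩
  obtain ⟨hc, hb, had⟩ := key
  rw [QuotientGroup.eq_one_iff, sl2_mem_center_iff, hXeta, hc, hb, ← had]
  rw [hc, hb, ← had] at hdet
  have : (a - 1) * (a + 1) = 0 := by linear_combination hdet
  rcases mul_eq_zero.mp this with h | h
  · left
    have : a = 1 := by linear_combination h
    rw [this]
    ext i j; fin_cases i <;> fin_cases j <;> simp
  · right
    have : a = -1 := by linear_combination h
    rw [this]
    ext i j; fin_cases i <;> fin_cases j <;> simp

end Cfsg.Agent.Lib.Helper14
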