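import Mathlib
import Cfsg.Agent.Lib.Helper14.ExcIso
import Cfsg.Agent.Lib.Helper14.PSL2Center
import Cfsg.Agent.Lib.Helper44.StdForms
import Cfsg.Agent.S0264

/-! `SL₂ × SL₂ → Ω₄⁺`. -/

set_option autoImplicit false

namespace Cfsg.Agent.Lib.Helper14

open Cfsg.Agent.Lib.Helper44 Matrix

variable {F : Type*} [Field F]

local notation "W" => Matrix (Fin 2) (Fin 2) F

/-- `diag(u, 1)`. -/
def diagU : Fˣ →* GL (Fin 2) F where
  toFun u := ⟨!![(u : F), 0; 0, 1], !![((u⁻¹ : Fˣ) : F), 0; 0, 1],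
    by simp [Matrix.one_fin_two],
    by simp [Matrix.one_fin_two]⟩
  map_one' := by
    apply Units.ext
    simp [Matrix.one_fin_two]
  map_mul' a b := by
    apply Units.ext
    simp

theorem diagU_coe (u : Fˣ) : (diagU u : W) = !![(u : F), 0; 0, 1] := rfl

theorem det_diagU (u : Fˣ) : (diagU u : W).det = u := by
  rw [diagU_coe, Matrix.det_fin_two]; simp

/-- Coordinates on `M₂(F)` turning `det` to the plus form. -/
def e4 : (Fin 2 ⊕ Fin 2 → F) →ₗ[F] W where
  toFun v := !![v (.inl 0), -v (.inl 1); v (.inr 1), v (.inr 0)]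
  map_add' x y := by
    ext i j; fin_cases i <;> fin_cases j <;> simp [add_comm]
  map_smul' c x := by
    ext i j; fin_cases i <;> fin_cases j <;> simp

theorem e4_apply (v : Fin 2 ⊕ Fin 2 → F) :
    e4 v = !![v (.inl 0), -v (.inl 1); v (.inr 1), v (.inr 0)] := rfl

theorem e4_injective : Function.Injective (e4 (F := F)) := by
  intro x y hxy
  rw [e4_apply, e4_apply] at hxy
  have h00 := congrFun (congrFun hxy 0) 0
  have h01 := congrFun (congrFun hxy 0) 1
  have h10 := congrFun (congrFun hxy 1) 0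
  have h11 := congrFun (congrFun hxy 1) 1
  simp at h00 h01 h10 h11
  ext i
  rcases i with i | i <;> fin_cases i
  · exact h00
  · exact h01
  · exact h11
  · exact h10

theorem e4_surjective : Function.Surjective (e4 (F := F)) := by
  intro M
  refine ⟨fun i => match i with
    | .inl 0 => M 0 0
    | .inl 1 => - M 0 1
    | .inr 0 => M 1 1
    | .inr 1 => M 1 0, ?_⟩
  rw [e4_apply]
  ext i j; fin_cases i <;> fin_cases j <;> simp

theorem det_e4 (v : Fin 2 ⊕ Fin 2 → F) : (e4 v).det = plusQF 2 F v := by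
  rw [e4_apply, Matrix.det_fin_two, plusQF_apply]
  simp [Fin.sum_univ_two]

/-- A homomorphism to pairs of equal determinant gives a homomorphism to `O₄⁺`. -/
noncomputable def rho4 {A : Type*} [Group A] (j : A →* GL (Fin 2) F × GL (Fin 2) F)
    (hj : ∀ a, ((j a).1 : W).det = ((j a).2 : W).det) : A →* OQ (plusQF 2 F) :=
  liftOQ (plusQF 2 F) e4 e4_injective ((twoSided F W).comp j)
    (fun a v => e4_surjective _) Matrix.det det_e4 (fun a v => by
      show ((j a).1 * e4 v * (((j a).2⁻¹ : GL (Fin 2) F) : W)).det = _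
      rw [Matrix.det_mul, Matrix.det_mul, hj, mul_right_comm, ← Matrix.det_mul]
      simp)

theorem rho4_spec {A : Type*} [Group A] (j : A →* GL (Fin 2) F × GL (Fin 2) F)
    (hj : ∀ a, ((j a).1 : W).det = ((j a).2 : W).det) (a : A) (v : Fin 2 ⊕ Fin 2 → F) :
    e4 ((rho4 j hj a : (Fin 2 ⊕ Fin 2 → F) ≃ₗ[F] (Fin 2 ⊕ Fin 2 → F)) v)
      = (j a).1 * e4 v * (((j a).2⁻¹ : GL (Fin 2) F) : W) :=
  liftOQ_spec _ _ _ _ _ _ _ _ a v

local notation "S" => Matrix.SpecialLinearGroup (Fin 2) F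

noncomputable def rho4SL : S × S →* OQ (plusQF 2 F) :=
  rho4 (MonoidHom.prodMap SpecialLinearGroup.toGL SpecialLinearGroup.toGL) (fun a => by simp)

noncomputable def rho4L : GL (Fin 2) F →* OQ (plusQF 2 F) :=
  rho4 (MonoidHom.prod (MonoidHom.id _) (diagU.comp GeneralLinearGroup.det)) (fun a => by
    simp [det_diagU])

noncomputable def rho4R : GL (Fin 2) F →* OQ (plusQF 2 F) :=
  rho4 (MonoidHom.prod (diagU.comp GeneralLinearGroup.det) (MonoidHom.id _)) (fun a => by
    simp [det_diagU])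

theorem det_toGL (a : S) : GeneralLinearGroup.det (SpecialLinearGroup.toGL a) = 1 := by
  ext
  simp

theorem rho4SL_eq (a b : S) :
    rho4SL (a, b) = rho4L (SpecialLinearGroup.toGL a) * rho4R (SpecialLinearGroup.toGL b) := by
  apply Subtype.ext
  ext1 v
  apply e4_injective
  rw [Subgroup.coe_mul, LinearEquiv.mul_apply]
  erw [rho4_spec, rho4_spec, rho4_spec]
  simp [mul_assoc]

theorem rho4SL_mem_commutator (h : ∃ x : F, x ≠ 0 ∧ x ≠ 1) (p : S × S) :
    rho4SL p ∈ commutator (OQ (plusQF 2 F)) := by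
  obtain ⟨a, b⟩ := p
  rw [rho4SL_eq]
  have hc : ∀ a : S, SpecialLinearGroup.toGL a ∈ commutator (GL (Fin 2) F) := by
    intro a
    rw [Cfsg.Agent.S0264.result 2 (fun _ => h), MonoidHom.mem_ker, det_toGL]
  exact mul_mem (map_mem_commutator _ (hc a)) (map_mem_commutator _ (hc b))

theorem mem_rho4SL_ker (p : S × S) :
    p ∈ (rho4SL (F := F)).ker ↔ p.1 = p.2 ∧ p.1 ∈ Subgroup.center S := by
  obtain ⟨a, b⟩ := p
  rw [MonoidHom.mem_ker]
  unfold rho4SL rho4
  rw [liftOQ_eq_one_iff]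
  have h1 : ∀ v : Fin 2 ⊕ Fin 2 → F,
      ((twoSided F W).comp (MonoidHom.prodMap SpecialLinearGroup.toGL SpecialLinearGroup.toGL))
        (a, b) (e4 v) = e4 v ↔ (a : W) * e4 v = e4 v * (b : W) := by
    intro v
    show (SpecialLinearGroup.toGL a : W) * e4 v * (((SpecialLinearGroup.toGL b)⁻¹ : GL (Fin 2) F) : W) = _ ↔ _
    rw [Units.mul_inv_eq_iff_eq_mul]
    rfl
  simp only [h1]
  constructor
  · intro h
    have hM : ∀ M : W, (a : W) * M = M * (b : W) := by
      intro M
      obtain ⟨v, rfl⟩ := e4_surjective M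
      exact h v
    have hab : a = b := by
      apply Matrix.SpecialLinearGroup.ext
      intro i j
      have := hM 1
      rw [mul_one, one_mul] at this
      rw [this]
    refine ⟨hab, ?_⟩
    rw [Subgroup.mem_center_iff]
    intro g
    apply Matrix.SpecialLinearGroup.ext
    intro i j
    rw [Matrix.SpecialLinearGroup.coe_mul, Matrix.SpecialLinearGroup.coe_mul]
    have := hM g
    rw [← hab] at this
    rw [this]
  · rintro ⟨hab, hc⟩ v
    change a = b at hab
    change a ∈ _ at hc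
    rw [← hab]
    rw [Cfsg.Agent.Lib.Helper41.sl2_mem_center_iff] at hc
    rcases hc with h | h <;> rw [h] <;> simp

theorem card_rho4SL_ker :
    Nat.card (rho4SL (F := F)).ker = Nat.card (Subgroup.center S) := by
  refine Nat.card_congr ⟨fun p => ⟨p.1.1, ((mem_rho4SL_ker p.1).mp p.2).2⟩,
    fun a => ⟨(a.1, a.1), (mem_rho4SL_ker _).mpr ⟨rfl, a.2⟩⟩, ?_, ?_⟩
  · intro p
    apply Subtype.ext
    apply Prod.ext
    · rfl
    · exact ((mem_rho4SL_ker p.1).mp p.2).1
  · intro a
    rfl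

end Cfsg.Agent.Lib.Helper14
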