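import Mathlib
import Cfsg.Agent.Lib.Helper14.A5Omega
import Cfsg.Agent.S0299

/-! `A₅ → PSL₂(q)` when `5` is a square in `F_q`, `q` odd. -/

set_option autoImplicit false

namespace Cfsg.Agent.Lib.Helper14

open Cfsg.Agent.Lib.Helper44 QuadraticMap

theorem injective_or_trivial {G H : Type*} [Group G] [IsSimpleGroup G] [Group H] (f : G →* H) :
    Function.Injective f ∨ ∀ g, f g = 1 := by
  rcases (inferInstance : f.ker.Normal).eq_bot_or_eq_top with h | h
  · left; exact (MonoidHom.ker_eq_bot_iff f).mp h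
  · right
    intro g
    have : g ∈ f.ker := by rw [h]; exact Subgroup.mem_top g
    exact this

theorem exists_A5_in_psl2 {F : Type*} [Field F] [Fintype F] (h2 : (2 : F) ≠ 0) (h5 : (5 : F) ≠ 0)
    (hs : IsSquare (5 : F)) (h3 : 3 ≤ Fintype.card F) :
    ∃ θ : alternatingGroup (Fin 5) →* Matrix.ProjectiveSpecialLinearGroup (Fin 2) F,
      Function.Injective θ := by
  obtain ⟨ρ, hρ⟩ := exists_S5_hom h2 h5 hs
  have he := Cfsg.Agent.S0299.result h3
  rw [← plusQF_coe] at he
  obtain ⟨e⟩ := he
  have hperf : commutator (alternatingGroup (Fin 5)) = ⊤ :=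
    commutator_alternatingGroup_eq_top (by simp)
  have hsimple : IsSimpleGroup (alternatingGroup (Fin 5)) := alternatingGroup.isSimpleGroup_five
  let ρ' : alternatingGroup (Fin 5) →* Cfsg.isometryGroup F ⇑(plusQF 2 F) :=
    (isoEquiv (plusQF 2 F)).symm.toMonoidHom.comp (ρ.comp (alternatingGroup (Fin 5)).subtype)
  have hρ' : Function.Injective ρ' :=
    (isoEquiv (plusQF 2 F)).symm.injective.comp (hρ.comp Subtype.val_injective)
  let φ : alternatingGroup (Fin 5) →* Cfsg.Omega F ⇑(plusQF 2 F) :=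
    ρ'.codRestrict (Cfsg.Omega F ⇑(plusQF 2 F)) (fun a =>
      map_mem_commutator ρ' (by rw [hperf]; exact Subgroup.mem_top a))
  have hφ : Function.Injective φ := by
    intro a b hab
    exact hρ' (congrArg Subtype.val hab)
  let ψ : alternatingGroup (Fin 5) →* Matrix.ProjectiveSpecialLinearGroup (Fin 2) F ×
      Matrix.ProjectiveSpecialLinearGroup (Fin 2) F :=
    e.toMonoidHom.comp ((QuotientGroup.mk' (Subgroup.center (Cfsg.Omega F ⇑(plusQF 2 F)))).comp φ)
  have hψ : ¬ ∀ g, ψ g = 1 := by
    intro h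
    have hc : ∀ g, φ g ∈ Subgroup.center (Cfsg.Omega F ⇑(plusQF 2 F)) := by
      intro g
      have h1 : e (QuotientGroup.mk' _ (φ g)) = 1 := h g
      rw [map_eq_one_iff e e.injective] at h1
      exact (QuotientGroup.eq_one_iff _).mp h1
    have hcen : ∀ g : alternatingGroup (Fin 5), g ∈ Subgroup.center (alternatingGroup (Fin 5)) := by
      intro g
      rw [Subgroup.mem_center_iff]
      intro x
      apply hφ
      rw [map_mul, map_mul]
      exact Subgroup.mem_center_iff.mp (hc g) (φ x)
    rw [alternatingGroup.center_eq_bot (by simp)] at hcen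
    have h1 : ∀ g : alternatingGroup (Fin 5), g = 1 := fun g => Subgroup.mem_bot.mp (hcen g)
    obtain ⟨a, b, hab⟩ := hsimple.toNontrivial.exists_pair_ne
    exact hab ((h1 a).trans (h1 b).symm)
  rcases injective_or_trivial ((MonoidHom.fst _ _).comp ψ) with h | h
  · exact ⟨_, h⟩
  rcases injective_or_trivial ((MonoidHom.snd _ _).comp ψ) with h' | h'
  · exact ⟨_, h'⟩
  exact absurd (fun g => Prod.ext (h g) (h' g)) hψ

end Cfsg.Agent.Lib.Helper14
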