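import Mathlib
import Cfsg.Prelude.Def_ClassicalGeometry

set_option autoImplicit false

namespace Cfsg.Agent.Lib.Helper14

open Matrix

variable {ι : Type} [Fintype ι] [DecidableEq ι] {F : Type*} [Field F]

theorem polarVec_dotProduct (Q : QuadraticForm F (ι → F)) (v x : ι → F) :
    Cfsg.polarVec (⇑Q) v ⬝ᵥ x = QuadraticMap.polar (⇑Q) v x := by
  have hx : x = ∑ j, x j • (Pi.single j (1 : F) : ι → F) := by
    ext i
    simp [Finset.sum_apply, Pi.single_apply]
  have h1 : QuadraticMap.polar (⇑Q) v x = QuadraticMap.polarBilin Q v x := rfl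
  conv_rhs => rw [h1, hx, map_sum]
  simp only [dotProduct, Cfsg.polarVec, map_smul, smul_eq_mul]
  apply Finset.sum_congr rfl
  intro j _
  rw [mul_comm]
  rfl

theorem siegelMatrix_mulVec (Q : QuadraticForm F (ι → F)) (u v : ι → F) (c : F) (x : ι → F) :
    (Cfsg.siegelMatrix (⇑Q) u v c) *ᵥ x
      = x + c • (QuadraticMap.polar (⇑Q) u x • v - QuadraticMap.polar (⇑Q) v x • u) := by
  simp only [Cfsg.siegelMatrix, add_mulVec, one_mulVec, smul_mulVec, sub_mulVec,
    vecMulVec_mulVec, polarVec_dotProduct]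
  ext i
  simp [mul_comm]

theorem reflectionMatrix_mulVec (Q : QuadraticForm F (ι → F)) (v : ι → F) (x : ι → F) :
    (Cfsg.reflectionMatrix (⇑Q) v) *ᵥ x
      = x - ((Q v)⁻¹ * QuadraticMap.polar (⇑Q) v x) • v := by
  simp only [Cfsg.reflectionMatrix, sub_mulVec, one_mulVec, smul_mulVec,
    vecMulVec_mulVec, polarVec_dotProduct]
  ext i
  simp [mul_comm, mul_left_comm]

end Cfsg.Agent.Lib.Helper14
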