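import Mathlib
import Cfsg.Prelude.Def_ClassicalGeometry
import Cfsg.Agent.Lib.Helper14.Quad

set_option autoImplicit false

namespace Cfsg.Agent.Lib.Helper14

open Matrix

variable {ι : Type} [Fintype ι] [DecidableEq ι] {F : Type*} [Field F]

/-- The matrix of an element of the isometry group. -/
abbrev isoMat {Q : (ι → F) → F} (g : ↥(Cfsg.isometryGroup F Q)) : Matrix ι ι F :=
  ((g : Matrix.GeneralLinearGroup ι F) : Matrix ι ι F)

theorem isoMat_preserves {Q : (ι → F) → F} (g : ↥(Cfsg.isometryGroup F Q)) (x : ι → F) :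
    Q (isoMat g *ᵥ x) = Q x := g.2 x x

theorem isoMat_mul {Q : (ι → F) → F} (g h : ↥(Cfsg.isometryGroup F Q)) :
    isoMat (g * h) = isoMat g * isoMat h := rfl

theorem isoMat_one {Q : (ι → F) → F} : isoMat (1 : ↥(Cfsg.isometryGroup F Q)) = 1 := rfl

theorem isoMat_injective {Q : (ι → F) → F} :
    Function.Injective (isoMat : ↥(Cfsg.isometryGroup F Q) → Matrix ι ι F) := by
  intro g h hgh
  apply Subtype.ext
  apply Units.ext
  exact hgh

theorem isoMat_ext {Q : (ι → F) → F} {g h : ↥(Cfsg.isometryGroup F Q)}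
    (H : ∀ x, isoMat g *ᵥ x = isoMat h *ᵥ x) : g = h := by
  apply isoMat_injective
  apply Matrix.toLin'.injective
  apply LinearMap.ext
  intro x
  simpa using H x

theorem matrix_ext_mulVec {M N : Matrix ι ι F} (H : ∀ x, M *ᵥ x = N *ᵥ x) : M = N := by
  apply Matrix.toLin'.injective
  apply LinearMap.ext
  intro x
  simpa using H x

/-- Build an element of the isometry group from a matrix with a right inverse preserving `Q`. -/
def mkIso (Q : (ι → F) → F) (M M' : Matrix ι ι F) (h1 : M * M' = 1)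
    (hQ : ∀ x, Q (M *ᵥ x) = Q x) : ↥(Cfsg.isometryGroup F Q) :=
  ⟨⟨M, M', h1, mul_eq_one_comm.mp h1⟩, fun u _ => hQ u⟩

@[simp] theorem isoMat_mkIso (Q : (ι → F) → F) (M M' : Matrix ι ι F) (h1 : M * M' = 1)
    (hQ : ∀ x, Q (M *ᵥ x) = Q x) : isoMat (mkIso Q M M' h1 hQ) = M := rfl

theorem isoMat_inv_mulVec {Q : (ι → F) → F} (g : ↥(Cfsg.isometryGroup F Q)) (x : ι → F) :
    isoMat g⁻¹ *ᵥ (isoMat g *ᵥ x) = x := by
  rw [Matrix.mulVec_mulVec, ← isoMat_mul, inv_mul_cancel, isoMat_one, Matrix.one_mulVec]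

theorem isoMat_mulVec_inv {Q : (ι → F) → F} (g : ↥(Cfsg.isometryGroup F Q)) (x : ι → F) :
    isoMat g *ᵥ (isoMat g⁻¹ *ᵥ x) = x := by
  rw [Matrix.mulVec_mulVec, ← isoMat_mul, mul_inv_cancel, isoMat_one, Matrix.one_mulVec]

/-- Isometries preserve the polar form. -/
theorem isoMat_polar {Q : (ι → F) → F} (g : ↥(Cfsg.isometryGroup F Q)) (x y : ι → F) :
    QuadraticMap.polar Q (isoMat g *ᵥ x) (isoMat g *ᵥ y) = QuadraticMap.polar Q x y := by
  simp only [QuadraticMap.polar, ← Matrix.mulVec_add, isoMat_preserves]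

omit [Fintype ι] [DecidableEq ι] in
theorem quad_add (Q : QuadraticForm F (ι → F)) (x y : ι → F) :
    Q (x + y) = Q x + Q y + QuadraticMap.polar (⇑Q) x y := by
  simp only [QuadraticMap.polar]; ring

omit [Fintype ι] [DecidableEq ι] in
theorem quad_sub (Q : QuadraticForm F (ι → F)) (x y : ι → F) :
    Q (x - y) = Q x + Q y - QuadraticMap.polar (⇑Q) x y := by
  rw [sub_eq_add_neg, quad_add, QuadraticMap.map_neg, QuadraticMap.polar_neg_right]; ring

omit [Fintype ι] [DecidableEq ι] in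
theorem quad_smul (Q : QuadraticForm F (ι → F)) (a : F) (x : ι → F) :
    Q (a • x) = a * a * Q x := by
  rw [QuadraticMap.map_smul]; rfl

/-- The reflection preserves `Q`. -/
theorem reflection_preserves (Q : QuadraticForm F (ι → F)) (v : ι → F) (hv : Q v ≠ 0)
    (x : ι → F) : Q (Cfsg.reflectionMatrix (⇑Q) v *ᵥ x) = Q x := by
  rw [reflectionMatrix_mulVec, quad_sub, quad_smul, QuadraticMap.polar_smul_right,
    QuadraticMap.polar_comm _ x v, smul_eq_mul]
  field_simp
  ring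

theorem reflection_sq (Q : QuadraticForm F (ι → F)) (v : ι → F) (hv : Q v ≠ 0) :
    Cfsg.reflectionMatrix (⇑Q) v * Cfsg.reflectionMatrix (⇑Q) v = 1 := by
  apply matrix_ext_mulVec
  intro x
  rw [← Matrix.mulVec_mulVec, reflectionMatrix_mulVec, reflectionMatrix_mulVec,
    QuadraticMap.polar_sub_right, QuadraticMap.polar_smul_right, QuadraticMap.polar_self,
    Matrix.one_mulVec, sub_sub, ← add_smul]
  have : (Q v)⁻¹ * QuadraticMap.polar (⇑Q) v x + (Q v)⁻¹ * (QuadraticMap.polar (⇑Q) v x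
      - ((Q v)⁻¹ * QuadraticMap.polar (⇑Q) v x) • (2 • Q v)) = 0 := by
    simp only [smul_eq_mul, nsmul_eq_mul]
    field_simp
    ring
  rw [this, zero_smul, sub_zero]

/-- The reflection in an anisotropic vector as an element of the isometry group. -/
def reflIso (Q : QuadraticForm F (ι → F)) (v : ι → F) (hv : Q v ≠ 0) :
    ↥(Cfsg.isometryGroup F (⇑Q)) :=
  mkIso (⇑Q) (Cfsg.reflectionMatrix (⇑Q) v) (Cfsg.reflectionMatrix (⇑Q) v)
    (reflection_sq Q v hv) (reflection_preserves Q v hv)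

@[simp] theorem isoMat_reflIso (Q : QuadraticForm F (ι → F)) (v : ι → F) (hv : Q v ≠ 0) :
    isoMat (reflIso Q v hv) = Cfsg.reflectionMatrix (⇑Q) v := rfl

theorem reflIso_mul_self (Q : QuadraticForm F (ι → F)) (v : ι → F) (hv : Q v ≠ 0) :
    reflIso Q v hv * reflIso Q v hv = 1 := by
  apply isoMat_injective
  rw [isoMat_mul, isoMat_reflIso, reflection_sq Q v hv, isoMat_one]

theorem reflIso_inv (Q : QuadraticForm F (ι → F)) (v : ι → F) (hv : Q v ≠ 0) :
    (reflIso Q v hv)⁻¹ = reflIso Q v hv :=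
  inv_eq_of_mul_eq_one_left (reflIso_mul_self Q v hv)

/-- Conjugating a reflection by an isometry. -/
theorem conj_reflIso (Q : QuadraticForm F (ι → F)) (g : ↥(Cfsg.isometryGroup F (⇑Q)))
    (v : ι → F) (hv : Q v ≠ 0) :
    g * reflIso Q v hv * g⁻¹
      = reflIso Q (isoMat g *ᵥ v) (by rw [isoMat_preserves (Q := ⇑Q)]; exact hv) := by
  apply isoMat_ext
  intro x
  rw [isoMat_mul, isoMat_mul, ← Matrix.mulVec_mulVec, ← Matrix.mulVec_mulVec, isoMat_reflIso,
    isoMat_reflIso, reflectionMatrix_mulVec, reflectionMatrix_mulVec, Matrix.mulVec_sub,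
    Matrix.mulVec_smul, isoMat_mulVec_inv, isoMat_preserves (Q := ⇑Q)]
  congr 3
  conv_rhs => rw [← isoMat_mulVec_inv g x, isoMat_polar]

end Cfsg.Agent.Lib.Helper14
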