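import Mathlib
import Cfsg.Agent.Lib.Helper14.ExcIsoMod
import Cfsg.Agent.Lib.Helper14.Omega6Plus
import Cfsg.Agent.Lib.Helper14.Orth
import Cfsg.Agent.Lib.Helper44.StdForms
import Cfsg.Agent.Lib.Helper44.Transport

/-! The 28-dimensional representation of `O₈⁺(F)` on the Chevalley Lie algebra of type `D₄`,
realised as a subquotient of `M₈(F) × F` (the degree two part of the Clifford algebra). -/

set_option autoImplicit false

namespace Cfsg.Agent.Lib.Helper14

open Matrix Cfsg.Agent.Lib.Helper44 QuadraticMap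

variable {F : Type*} [Field F]

local notation "I8" => (Fin 4 ⊕ Fin 4)
local notation "M8" => Matrix (Fin 4 ⊕ Fin 4) (Fin 4 ⊕ Fin 4) F
local notation "V28" => (Fin 4 ⊕ Fin 24 → F)

/-- `O₈⁺(F)` as a matrix group -/
abbrev G8 (F : Type*) [Field F] : Type _ := ↥(Cfsg.isometryGroup F ⇑(plusQF 4 F))

/-- the matrix part of the parametrisation -/
def x28f (v : V28) : M8 :=
  Matrix.fromBlocks
    !![0, -v (.inr 23), -v (.inr 22), v (.inr 20);
      0, 0, -v (.inr 17), v (.inr 15);
      0, 0, 0, -v (.inr 12);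
      0, 0, 0, 0]
    !![v (.inl 0), -v (.inr 18), v (.inr 19), v (.inr 21);
      -v (.inr 5), -v (.inl 0) + v (.inl 1), v (.inr 14), v (.inr 16);
      v (.inr 4), v (.inr 9), -v (.inl 1) + v (.inl 2) + v (.inl 3), -v (.inr 13);
      v (.inr 2), v (.inr 7), -v (.inr 10), -v (.inl 2) + v (.inl 3)]
    0
    !![0, v (.inr 0), v (.inr 1), -v (.inr 3);
      0, 0, v (.inr 6), -v (.inr 8);
      0, 0, 0, v (.inr 11);
      0, 0, 0, 0]

/-- `Σ X_{i,i'}` -/
def qs (X : M8) : F := ∑ i : Fin 4, X (.inl i) (.inr i)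

theorem qs_add (X Y : M8) : qs (X + Y) = qs X + qs Y := by
  simp [qs, Finset.sum_add_distrib]

theorem qs_sub (X Y : M8) : qs (X - Y) = qs X - qs Y := by
  simp [qs, Finset.sum_sub_distrib]

theorem qs_smul (c : F) (X : M8) : qs (c • X) = c * qs X := by
  simp [qs, Finset.mul_sum]

set_option maxHeartbeats 2000000 in
theorem x28f_add (x y : V28) : x28f (x + y) = x28f x + x28f y := by
  ext i j
  rcases i with i | i <;> rcases j with j | j <;> fin_cases i <;> fin_cases j <;>
    simp [x28f] <;> ring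

set_option maxHeartbeats 2000000 in
theorem x28f_smul (c : F) (x : V28) : x28f (c • x) = c • x28f x := by
  ext i j
  rcases i with i | i <;> rcases j with j | j <;> fin_cases i <;> fin_cases j <;>
    simp [x28f] <;> ring

/-- The parametrisation of the Lie algebra. -/
def e28 : V28 →ₗ[F] M8 × F where
  toFun v := (x28f v, - v (.inl 3))
  map_add' x y := Prod.ext (x28f_add x y) (by simp [add_comm])
  map_smul' c x := Prod.ext (x28f_smul c x) (by simp)

theorem e28_apply (v : V28) : e28 v = (x28f v, - v (.inl 3)) := rfl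

/-- The submodule spanned by the `(v vᵀ, -Q v)`. -/
def U28 : Submodule F (M8 × F) where
  carrier := {p | p.1ᵀ = p.1 ∧ p.2 = - qs p.1}
  add_mem' := by
    rintro a b ⟨h1, h2⟩ ⟨h3, h4⟩
    refine ⟨by simp [h1, h3], ?_⟩
    simp only [Prod.snd_add, Prod.fst_add, qs_add, h2, h4]
    ring
  zero_mem' := by simp [qs]
  smul_mem' := by
    rintro c a ⟨h1, h2⟩
    refine ⟨by simp [h1], ?_⟩
    simp only [Prod.smul_snd, Prod.smul_fst, qs_smul, h2, smul_eq_mul]
    ring

theorem mem_U28 (p : M8 × F) : p ∈ (U28 : Submodule F (M8 × F)) ↔ p.1ᵀ = p.1 ∧ p.2 = - qs p.1 :=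
  Iff.rfl

theorem alt_sum {ι : Type*} [Fintype ι] [DecidableEq ι] (S c : ι → ι → F)
    (hS : ∀ k l, S k l = S l k) (hc : ∀ k, c k k = 0) (hc' : ∀ k l, c k l + c l k = 0) :
    ∑ k, ∑ l, S k l * c k l = 0 := by
  rw [← Finset.sum_product']
  refine Finset.sum_involution (fun p _ => (p.2, p.1)) ?_ ?_ ?_ ?_
  · rintro ⟨k, l⟩ _
    show S k l * c k l + S l k * c l k = 0
    rw [hS l k, ← mul_add, hc', mul_zero]
  · rintro ⟨k, l⟩ _ h1 h2
    have : l = k := congrArg Prod.fst h2
    subst this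
    exact h1 (by show S l l * c l l = 0; rw [hc, mul_zero])
  · intro _ _; exact Finset.mem_univ _
  · rintro ⟨k, l⟩ _; rfl

/-- the half form on columns -/
def bb (g : M8) (k l : I8) : F := ∑ i : Fin 4, g (.inl i) k * g (.inr i) l

theorem qs_cong (g S : M8) : qs (g * S * gᵀ) = ∑ k, ∑ l, S k l * bb g k l := by
  unfold qs bb
  simp only [Matrix.mul_apply, Matrix.transpose_apply, Finset.sum_mul, Finset.mul_sum]
  rw [Finset.sum_comm]
  conv_lhs => enter [2, l]; rw [Finset.sum_comm]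
  rw [Finset.sum_comm]
  refine Finset.sum_congr rfl fun k _ => Finset.sum_congr rfl fun l _ =>
    Finset.sum_congr rfl fun i _ => by ring

theorem bb_self (g : M8) (k : I8) : bb g k k = plusQF 4 F (g *ᵥ Pi.single k 1) := by
  rw [plusQF_apply]
  simp [bb]

theorem bb_add (g : M8) (k l : I8) :
    bb g k l + bb g l k = polar (plusQF 4 F) (g *ᵥ Pi.single k 1) (g *ᵥ Pi.single l 1) := by
  rw [plusQF_polar]
  simp [bb, Finset.sum_add_distrib]

theorem qs_cong_iso (g : G8 F) (S : M8) (hS : Sᵀ = S) :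
    qs (isoMat g * S * (isoMat g)ᵀ) = qs S := by
  have h1 : qs S = qs ((1 : M8) * S * (1 : M8)ᵀ) := by simp
  rw [h1, qs_cong, qs_cong, ← sub_eq_zero, ← Finset.sum_sub_distrib]
  simp only [← Finset.sum_sub_distrib, ← mul_sub]
  apply alt_sum
  · intro k l
    exact congrFun (congrFun hS l) k
  · intro k
    rw [bb_self, bb_self, isoMat_preserves g, Matrix.one_mulVec, sub_self]
  · intro k l
    have h4 := isoMat_polar g (Pi.single k 1) (Pi.single l 1)
    have h2 := bb_add (isoMat g) k l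
    have h3 := bb_add (1 : M8) k l
    rw [Matrix.one_mulVec, Matrix.one_mulVec] at h3
    rw [h4] at h2
    linear_combination h2 - h3

/-- extend by the identity on the second factor -/
def prodIdHom (W : Type*) [AddCommGroup W] [Module F W] :
    (W ≃ₗ[F] W) →* ((W × F) ≃ₗ[F] (W × F)) where
  toFun f := f.prodCongr (LinearEquiv.refl F F)
  map_one' := by ext p <;> rfl
  map_mul' a b := by ext p <;> rfl

/-- The action of `O₈⁺` on `M₈ × F`. -/
noncomputable def T28 : G8 F →* ((M8 × F) ≃ₗ[F] (M8 × F)) :=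
  (prodIdHom M8).comp
    ((congAct F (R := M8) Matrix.transpose Matrix.transpose_one Matrix.transpose_mul).comp
      (Subgroup.subtype _))

theorem T28_apply (g : G8 F) (p : M8 × F) :
    T28 g p = (isoMat g * p.1 * (isoMat g)ᵀ, p.2) := rfl

theorem T28_U28 (g : G8 F) (u : M8 × F) (hu : u ∈ (U28 : Submodule F (M8 × F))) :
    T28 g u ∈ (U28 : Submodule F (M8 × F)) := by
  rw [mem_U28] at hu ⊢
  rw [T28_apply]
  refine ⟨?_, ?_⟩
  · show (isoMat g * u.1 * (isoMat g)ᵀ)ᵀ = _
    rw [Matrix.transpose_mul, Matrix.transpose_mul, Matrix.transpose_transpose, hu.1, mul_assoc]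
  · show u.2 = - qs (isoMat g * u.1 * (isoMat g)ᵀ)
    rw [qs_cong_iso g _ hu.1, hu.2]

theorem e28_inj (x : V28) (h : e28 x ∈ (U28 : Submodule F (M8 × F))) : x = 0 := by
  rw [mem_U28, e28_apply] at h
  have H : ∀ i j, x28f x j i = x28f x i j := fun i j => congrFun (congrFun h.1 i) j
  have h0 : x (.inl 0) = 0 := by have := H (.inr 0) (.inl 0); simpa [x28f] using this
  have h1 : - x (.inl 0) + x (.inl 1) = 0 := by
    have := H (.inr 1) (.inl 1); simpa [x28f] using this
  have h2 : - x (.inl 1) + x (.inl 2) + x (.inl 3) = 0 := by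
    have := H (.inr 2) (.inl 2); simpa [x28f] using this
  have h3 : - x (.inl 2) + x (.inl 3) = 0 := by
    have := H (.inr 3) (.inl 3); simpa [x28f] using this
  have h4 : - x (.inl 3) = - (x (.inl 0) + (- x (.inl 0) + x (.inl 1))
      + (- x (.inl 1) + x (.inl 2) + x (.inl 3)) + (- x (.inl 2) + x (.inl 3))) := by
    have := h.2
    simpa [qs, x28f, Fin.sum_univ_four] using this
  ext idx
  rcases idx with i | u
  · fin_cases i
    · exact h0
    · show x (.inl 1) = 0
      linear_combination h1 + h0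
    · show x (.inl 2) = 0
      linear_combination (-1 : F) * h4 + h0 + h1 + h2
    · show x (.inl 3) = 0
      linear_combination (-1 : F) * h4 + h0 + h1 + h2 + h3
  fin_cases u
  · have := H (.inr 1) (.inr 0); simpa [x28f] using this
  · have := H (.inr 2) (.inr 0); simpa [x28f] using this
  · have := H (.inr 0) (.inl 3); simpa [x28f] using this
  · have := H (.inr 3) (.inr 0); simpa [x28f] using this
  · have := H (.inr 0) (.inl 2); simpa [x28f] using this
  · have := H (.inr 0) (.inl 1); simpa [x28f] using this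
  · have := H (.inr 2) (.inr 1); simpa [x28f] using this
  · have := H (.inr 1) (.inl 3); simpa [x28f] using this
  · have := H (.inr 3) (.inr 1); simpa [x28f] using this
  · have := H (.inr 1) (.inl 2); simpa [x28f] using this
  · have := H (.inr 2) (.inl 3); simpa [x28f] using this
  · have := H (.inr 3) (.inr 2); simpa [x28f] using this
  · have := H (.inl 3) (.inl 2); simpa [x28f] using this
  · have := H (.inr 3) (.inl 2); simpa [x28f] using this
  · have := H (.inr 2) (.inl 1); simpa [x28f] using this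
  · have := H (.inl 3) (.inl 1); simpa [x28f] using this
  · have := H (.inr 3) (.inl 1); simpa [x28f] using this
  · have := H (.inl 2) (.inl 1); simpa [x28f] using this
  · have := H (.inr 1) (.inl 0); simpa [x28f] using this
  · have := H (.inr 2) (.inl 0); simpa [x28f] using this
  · have := H (.inl 3) (.inl 0); simpa [x28f] using this
  · have := H (.inr 3) (.inl 0); simpa [x28f] using this
  · have := H (.inl 2) (.inl 0); simpa [x28f] using this
  · have := H (.inl 1) (.inl 0); simpa [x28f] using this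

theorem fn_e28 (v : V28) : qs (x28f v) + qs (x28f v)ᵀ + 2 * (- v (.inl 3)) = 0 := by
  simp [qs, x28f, Fin.sum_univ_four]
  ring

theorem fn_cong (g : G8 F) (X : M8) :
    qs (isoMat g * X * (isoMat g)ᵀ) + qs (isoMat g * X * (isoMat g)ᵀ)ᵀ = qs X + qs Xᵀ := by
  have h1 : (isoMat g * X * (isoMat g)ᵀ)ᵀ = isoMat g * Xᵀ * (isoMat g)ᵀ := by
    rw [Matrix.transpose_mul, Matrix.transpose_mul, Matrix.transpose_transpose, mul_assoc]
  rw [h1, ← qs_add, ← qs_add, ← add_mul, ← mul_add, qs_cong_iso]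
  rw [Matrix.transpose_add, Matrix.transpose_transpose, add_comm]

/-- the inverse coordinates -/
def k28 (Y : M8) (s : F) : V28 :=
  Sum.elim
    ![Y (.inl 0) (.inr 0) - Y (.inr 0) (.inl 0),
      Y (.inl 0) (.inr 0) - Y (.inr 0) (.inl 0) + (Y (.inl 1) (.inr 1) - Y (.inr 1) (.inl 1)),
      Y (.inl 0) (.inr 0) - Y (.inr 0) (.inl 0) + (Y (.inl 1) (.inr 1) - Y (.inr 1) (.inl 1))
        + (Y (.inl 2) (.inr 2) - Y (.inr 2) (.inl 2)) + (s + qs Yᵀ),
      - (s + qs Yᵀ)]
    ![Y (.inr 0) (.inr 1) - Y (.inr 1) (.inr 0),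
      Y (.inr 0) (.inr 2) - Y (.inr 2) (.inr 0),
      Y (.inl 3) (.inr 0) - Y (.inr 0) (.inl 3),
      -(Y (.inr 0) (.inr 3) - Y (.inr 3) (.inr 0)),
      Y (.inl 2) (.inr 0) - Y (.inr 0) (.inl 2),
      -(Y (.inl 1) (.inr 0) - Y (.inr 0) (.inl 1)),
      Y (.inr 1) (.inr 2) - Y (.inr 2) (.inr 1),
      Y (.inl 3) (.inr 1) - Y (.inr 1) (.inl 3),
      -(Y (.inr 1) (.inr 3) - Y (.inr 3) (.inr 1)),
      Y (.inl 2) (.inr 1) - Y (.inr 1) (.inl 2),
      -(Y (.inl 3) (.inr 2) - Y (.inr 2) (.inl 3)),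
      Y (.inr 2) (.inr 3) - Y (.inr 3) (.inr 2),
      -(Y (.inl 2) (.inl 3) - Y (.inl 3) (.inl 2)),
      -(Y (.inl 2) (.inr 3) - Y (.inr 3) (.inl 2)),
      Y (.inl 1) (.inr 2) - Y (.inr 2) (.inl 1),
      Y (.inl 1) (.inl 3) - Y (.inl 3) (.inl 1),
      Y (.inl 1) (.inr 3) - Y (.inr 3) (.inl 1),
      -(Y (.inl 1) (.inl 2) - Y (.inl 2) (.inl 1)),
      -(Y (.inl 0) (.inr 1) - Y (.inr 1) (.inl 0)),
      Y (.inl 0) (.inr 2) - Y (.inr 2) (.inl 0),
      Y (.inl 0) (.inl 3) - Y (.inl 3) (.inl 0),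
      Y (.inl 0) (.inr 3) - Y (.inr 3) (.inl 0),
      -(Y (.inl 0) (.inl 2) - Y (.inl 2) (.inl 0)),
      -(Y (.inl 0) (.inl 1) - Y (.inl 1) (.inl 0))]

set_option maxHeartbeats 4000000 in
theorem exists_e28 (Y : M8) (s : F) (h : qs Y + qs Yᵀ + 2 * s = 0) :
    e28 (k28 Y s) - (Y, s) ∈ (U28 : Submodule F (M8 × F)) := by
  rw [mem_U28, e28_apply]
  have h' : Y (.inl 0) (.inr 0) + Y (.inl 1) (.inr 1) + Y (.inl 2) (.inr 2) + Y (.inl 3) (.inr 3)
      + (Y (.inr 0) (.inl 0) + Y (.inr 1) (.inl 1) + Y (.inr 2) (.inl 2) + Y (.inr 3) (.inl 3))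
      + 2 * s = 0 := by
    simpa [qs, Fin.sum_univ_four] using h
  constructor
  · ext i j
    rcases i with i | i <;> rcases j with j | j <;> fin_cases i <;> fin_cases j <;>
      simp [x28f, k28, qs, Fin.sum_univ_four] <;>
      first | ring1 | linear_combination h' | linear_combination (-1 : F) * h'
  · simp [x28f, k28, qs, Fin.sum_univ_four]
    first | ring1 | linear_combination h' | linear_combination (-1 : F) * h'

theorem T28_range (g : G8 F) (v : V28) :
    ∃ v', e28 v' - T28 g (e28 v) ∈ (U28 : Submodule F (M8 × F)) := by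
  rw [T28_apply]
  refine ⟨_, exists_e28 _ _ ?_⟩
  rw [fn_cong]
  exact fn_e28 v

/-- The adjoint representation, as linear equivalences. -/
noncomputable def adL8 : G8 F →* (V28 ≃ₗ[F] V28) :=
  liftRepM e28 U28 e28_inj T28 T28_U28 T28_range

theorem adL8_spec (g : G8 F) (v : V28) :
    e28 (adL8 g v) - T28 g (e28 v) ∈ (U28 : Submodule F (M8 × F)) :=
  liftRepM_spec _ _ _ _ _ _ g v

/-- The adjoint representation, as matrices. -/
noncomputable def adG8 : G8 F →* GL (Fin 4 ⊕ Fin 24) F :=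
  (glEquiv (ι := Fin 4 ⊕ Fin 24) (F := F)).symm.toMonoidHom.comp adL8

theorem adG8_mulVec (g : G8 F) (v : V28) :
    (adG8 g : Matrix (Fin 4 ⊕ Fin 24) (Fin 4 ⊕ Fin 24) F) *ᵥ v = adL8 g v := by
  rw [← glEquiv_apply]
  simp [adG8]

theorem adG8_eq_of (g : G8 F) (X : Matrix (Fin 4 ⊕ Fin 24) (Fin 4 ⊕ Fin 24) F)
    (h : ∀ v, e28 (X *ᵥ v) - T28 g (e28 v) ∈ (U28 : Submodule F (M8 × F))) :
    (adG8 g : Matrix (Fin 4 ⊕ Fin 24) (Fin 4 ⊕ Fin 24) F) = X := by
  apply Cfsg.Agent.Lib.Helper44.matrix_ext_mulVec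
  intro v
  apply eq_of_sub_mem e28 U28 e28_inj
  rw [adG8_mulVec]
  have := (U28 : Submodule F (M8 × F)).sub_mem (adL8_spec g v) (h v)
  convert this using 1
  abel

theorem adG8_eq_one (g : G8 F) (h : adG8 g = 1) (v : V28) :
    e28 v - T28 g (e28 v) ∈ (U28 : Submodule F (M8 × F)) := by
  have h1 := adL8_spec g v
  rw [← adG8_mulVec, h] at h1
  simpa using h1

end Cfsg.Agent.Lib.Helper14
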