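import Mathlib
import Cfsg.Prelude.Def_ChevD4

/-! Closed forms for the action of the matrices `x_r(t)` of `chevD4` on a vector. -/

set_option autoImplicit false

namespace Cfsg.Agent.Lib.Helper14

open Cfsg Cfsg.Lie Matrix

def srcD : Fin 24 → Fin 24 → Fin 24 :=
  ![![0, 14, 15, 16, 17, 0, 19, 20, 21, 22, 0, 0, 0, 0, 0, 0, 0, 0, 0, 0, 0, 0, 0, 0],
    ![9, 0, 12, 13, 0, 17, 18, 0, 0, 0, 20, 21, 0, 0, 23, 0, 0, 0, 0, 0, 0, 0, 0, 0],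
    ![8, 11, 0, 0, 13, 16, 0, 18, 0, 0, 19, 0, 22, 0, 0, 23, 0, 0, 0, 0, 0, 0, 0, 0],
    ![7, 10, 0, 0, 12, 15, 0, 0, 18, 0, 0, 19, 0, 22, 0, 0, 23, 0, 0, 0, 0, 0, 0, 0],
    ![6, 0, 10, 11, 0, 14, 0, 0, 0, 18, 0, 0, 20, 21, 0, 0, 0, 23, 0, 0, 0, 0, 0, 0],
    ![0, 6, 7, 8, 9, 0, 0, 0, 0, 0, 0, 0, 0, 0, 19, 20, 21, 22, 0, 0, 0, 0, 0, 0],
    ![4, 5, 0, 0, 0, 0, 0, 12, 13, 0, 15, 16, 0, 0, 0, 0, 0, 0, 22, 23, 0, 0, 0, 0],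
    ![3, 0, 5, 0, 0, 0, 11, 0, 0, 13, 14, 0, 17, 0, 0, 0, 0, 0, 21, 0, 23, 0, 0, 0],
    ![2, 0, 0, 5, 0, 0, 10, 0, 0, 12, 0, 14, 0, 17, 0, 0, 0, 0, 20, 0, 0, 23, 0, 0],
    ![1, 0, 0, 0, 5, 0, 0, 10, 11, 0, 0, 0, 15, 16, 0, 0, 0, 0, 19, 0, 0, 0, 23, 0],
    ![0, 3, 4, 0, 0, 0, 8, 9, 0, 0, 0, 0, 0, 0, 16, 17, 0, 0, 0, 21, 22, 0, 0, 0],
    ![0, 2, 0, 4, 0, 0, 7, 0, 9, 0, 0, 0, 0, 0, 15, 0, 17, 0, 0, 20, 0, 22, 0, 0],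
    ![0, 0, 1, 0, 3, 0, 0, 6, 0, 8, 0, 0, 0, 0, 0, 14, 0, 16, 0, 0, 19, 0, 21, 0],
    ![0, 0, 0, 1, 2, 0, 0, 0, 6, 7, 0, 0, 0, 0, 0, 0, 14, 15, 0, 0, 0, 19, 20, 0],
    ![0, 0, 0, 0, 0, 4, 0, 0, 0, 0, 7, 8, 0, 0, 0, 12, 13, 0, 0, 18, 0, 0, 0, 22],
    ![0, 0, 0, 0, 0, 3, 0, 0, 0, 0, 6, 0, 9, 0, 11, 0, 0, 13, 0, 0, 18, 0, 0, 21],
    ![0, 0, 0, 0, 0, 2, 0, 0, 0, 0, 0, 6, 0, 9, 10, 0, 0, 12, 0, 0, 0, 18, 0, 20],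
    ![0, 0, 0, 0, 0, 1, 0, 0, 0, 0, 0, 0, 7, 8, 0, 10, 11, 0, 0, 0, 0, 0, 18, 19],
    ![0, 0, 0, 0, 0, 0, 1, 2, 3, 4, 0, 0, 0, 0, 0, 0, 0, 0, 0, 14, 15, 16, 17, 0],
    ![0, 0, 0, 0, 0, 0, 0, 0, 0, 0, 2, 3, 0, 0, 5, 0, 0, 0, 9, 0, 12, 13, 0, 17],
    ![0, 0, 0, 0, 0, 0, 0, 0, 0, 0, 1, 0, 4, 0, 0, 5, 0, 0, 8, 11, 0, 0, 13, 16],
    ![0, 0, 0, 0, 0, 0, 0, 0, 0, 0, 0, 1, 0, 4, 0, 0, 5, 0, 7, 10, 0, 0, 12, 15],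
    ![0, 0, 0, 0, 0, 0, 0, 0, 0, 0, 0, 0, 2, 3, 0, 0, 0, 5, 6, 0, 10, 11, 0, 14],
    ![0, 0, 0, 0, 0, 0, 0, 0, 0, 0, 0, 0, 0, 0, 1, 2, 3, 4, 0, 6, 7, 8, 9, 0]]

def sgnD : Fin 24 → Fin 24 → ℤ :=
  ![![0, 1, -1, -1, 1, 0, -1, 1, 1, -1, 0, 0, 0, 0, 0, 0, 0, 0, 0, 0, 0, 0, 0, 0],
    ![1, 0, 1, 1, 0, 1, -1, 0, 0, 0, -1, -1, 0, 0, -1, 0, 0, 0, 0, 0, 0, 0, 0, 0],
    ![-1, 1, 0, 0, 1, 1, 0, -1, 0, 0, -1, 0, -1, 0, 0, 1, 0, 0, 0, 0, 0, 0, 0, 0],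
    ![-1, 1, 0, 0, 1, 1, 0, 0, -1, 0, 0, -1, 0, -1, 0, 0, 1, 0, 0, 0, 0, 0, 0, 0],
    ![1, 0, 1, 1, 0, 1, 0, 0, 0, -1, 0, 0, -1, -1, 0, 0, 0, -1, 0, 0, 0, 0, 0, 0],
    ![0, 1, 1, 1, 1, 0, 0, 0, 0, 0, 0, 0, 0, 0, -1, -1, -1, -1, 0, 0, 0, 0, 0, 0],
    ![-1, -1, 0, 0, 0, 0, 0, 1, 1, 0, -1, -1, 0, 0, 0, 0, 0, 0, 1, 1, 0, 0, 0, 0],
    ![1, 0, -1, 0, 0, 0, 1, 0, 0, 1, -1, 0, -1, 0, 0, 0, 0, 0, 1, 0, -1, 0, 0, 0],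
    ![1, 0, 0, -1, 0, 0, 1, 0, 0, 1, 0, -1, 0, -1, 0, 0, 0, 0, 1, 0, 0, -1, 0, 0],
    ![-1, 0, 0, 0, -1, 0, 0, 1, 1, 0, 0, 0, -1, -1, 0, 0, 0, 0, 1, 0, 0, 0, 1, 0],
    ![0, -1, -1, 0, 0, 0, -1, -1, 0, 0, 0, 0, 0, 0, 1, 1, 0, 0, 0, 1, 1, 0, 0, 0],
    ![0, -1, 0, -1, 0, 0, -1, 0, -1, 0, 0, 0, 0, 0, 1, 0, 1, 0, 0, 1, 0, 1, 0, 0],
    ![0, 0, -1, 0, -1, 0, 0, -1, 0, -1, 0, 0, 0, 0, 0, 1, 0, 1, 0, 0, 1, 0, 1, 0],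
    ![0, 0, 0, -1, -1, 0, 0, 0, -1, -1, 0, 0, 0, 0, 0, 0, 1, 1, 0, 0, 0, 1, 1, 0],
    ![0, -1, 0, 0, 0, -1, 0, 0, 0, 0, 1, 1, 0, 0, 0, -1, -1, 0, 0, 1, 0, 0, 0, 1],
    ![0, 0, 1, 0, 0, -1, 0, 0, 0, 0, 1, 0, 1, 0, -1, 0, 0, -1, 0, 0, 1, 0, 0, -1],
    ![0, 0, 0, 1, 0, -1, 0, 0, 0, 0, 0, 1, 0, 1, -1, 0, 0, -1, 0, 0, 0, 1, 0, -1],
    ![0, 0, 0, 0, -1, -1, 0, 0, 0, 0, 0, 0, 1, 1, 0, -1, -1, 0, 0, 0, 0, 0, 1, 1],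
    ![0, 0, 0, 0, 0, 0, 1, 1, 1, 1, 0, 0, 0, 0, 0, 0, 0, 0, 0, -1, -1, -1, -1, 0],
    ![0, 0, 0, 0, 0, 0, 1, 0, 0, 0, 1, 1, 0, 0, 1, 0, 0, 0, -1, 0, -1, -1, 0, -1],
    ![0, 0, 0, 0, 0, 0, 0, -1, 0, 0, 1, 0, 1, 0, 0, 1, 0, 0, -1, -1, 0, 0, -1, 1],
    ![0, 0, 0, 0, 0, 0, 0, 0, -1, 0, 0, 1, 0, 1, 0, 0, 1, 0, -1, -1, 0, 0, -1, 1],
    ![0, 0, 0, 0, 0, 0, 0, 0, 0, 1, 0, 0, 1, 1, 0, 0, 0, 1, -1, 0, -1, -1, 0, -1],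
    ![0, 0, 0, 0, 0, 0, 0, 0, 0, 0, 0, 0, 0, 0, 1, -1, -1, 1, 0, -1, 1, 1, -1, 0]]

variable {F : Type*} [Field F]

/-- `x_r(t)` of type `D₄` with clean types. -/
def XD (r : Fin 24) (t : F) : Matrix (Fin 4 ⊕ Fin 24) (Fin 4 ⊕ Fin 24) F := chevD4.xMat F r t

def ccD (r s u : ℕ) : List (ℕ × ℤ) := chevD4.chainCoeff r s u

def corD (r : Fin 24) (i : Fin 4) : ℤ := (chevD4Coroot.getD r.val #[]).getD i.val 0

def carD (i : Fin 4) (r : Fin 24) : ℤ := (chevD4CartanSR.getD i.val #[]).getD r.val 0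

theorem XD_hh (r : Fin 24) (t : F) (i j : Fin 4) :
    XD r t (.inl i) (.inl j) = if i = j then 1 else 0 := rfl
theorem XD_rh (r : Fin 24) (t : F) (u : Fin 24) (j : Fin 4) :
    XD r t (.inr u) (.inl j) = if u = r then - ((carD j r : ℤ) : F) * t else 0 := rfl
theorem XD_hr (r : Fin 24) (t : F) (i : Fin 4) (s : Fin 24) :
    XD r t (.inl i) (.inr s) =
      if s = r then 0 else if s.val = chevD4NegIdx.getD r.val 0 then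
        ((corD r i : ℤ) : F) * t else 0 := rfl
theorem XD_rr (r : Fin 24) (t : F) (u : Fin 24) (s : Fin 24) :
    XD r t (.inr u) (.inr s) =
      if s = r then (if u = r then 1 else 0) else if s.val = chevD4NegIdx.getD r.val 0 then
        (if u = s then 1 else if u = r then -(t ^ 2) else 0) else
        (if u = s then 1 else 0) +
               ((ccD r.val s.val u.val).map fun km => ((km.2 : ℤ) : F) * t ^ km.1).sum := rfl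

theorem negD_eq : ∀ r : Fin 24, chevD4NegIdx.getD r.val 0 = (Fin.rev r).val := by decide

theorem rev_ne : ∀ r : Fin 24, Fin.rev r ≠ r := by decide

theorem ccD_eq : ∀ r s u : Fin 24, ccD r.val s.val u.val =
    if s = srcD r u ∧ sgnD r u ≠ 0 then [(1, sgnD r u)] else [] := by decide +kernel

theorem srcD_ne : ∀ r u : Fin 24, sgnD r u ≠ 0 → srcD r u ≠ r ∧ srcD r u ≠ Fin.rev r := by
  decide +kernel

theorem XD_rr' (r : Fin 24) (t : F) (u : Fin 24) (s : Fin 24) :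
    XD r t (.inr u) (.inr s) = (if s = u then 1 else 0)
      + (if s = Fin.rev r then (if u = r then -(t ^ 2) else 0) else 0)
      + (if s = srcD r u then ((sgnD r u : ℤ) : F) * t else 0) := by
  rw [XD_rr, negD_eq, ccD_eq]
  have h1 := rev_ne r
  have h2 := srcD_ne r u
  by_cases hs : s = r
  · subst hs
    by_cases h0 : sgnD s u = 0
    · simp [h0, h1.symm, eq_comm]
    · have := (h2 h0).1
      simp [h1.symm, this.symm, eq_comm]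
  · by_cases hs' : s = Fin.rev r
    · subst hs'
      by_cases h0 : sgnD r u = 0
      · by_cases hu : u = r
        · subst hu; simp [h0, h1, h1.symm]
        · simp [h0, h1, hu, eq_comm]
      · have := (h2 h0).2
        by_cases hu : u = r
        · subst hu; simp [h1, h1.symm, this.symm]
        · simp [h1, hu, this.symm, eq_comm]
    · have hs'' : ¬ (s.val = (Fin.rev r).val) := fun h => hs' (Fin.ext h)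
      rw [if_neg hs, if_neg hs'', if_neg hs', add_zero]
      have e1 : (if u = s then (1 : F) else 0) = if s = u then 1 else 0 := by
        simp only [eq_comm]
      rw [e1]
      congr 1
      by_cases h0 : sgnD r u = 0
      · simp [h0]
      · by_cases h3 : s = srcD r u
        · simp [h0, h3]
        · simp [h3]

theorem XD_hr' (r : Fin 24) (t : F) (i : Fin 4) (s : Fin 24) :
    XD r t (.inl i) (.inr s) = if s = Fin.rev r then ((corD r i : ℤ) : F) * t else 0 := by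
  rw [XD_hr, negD_eq]
  have h1 := rev_ne r
  by_cases hs : s = r
  · subst hs; simp [h1.symm]
  · simp [hs, Fin.ext_iff]

theorem XD_mulVec_inl (r : Fin 24) (t : F) (v : Fin 4 ⊕ Fin 24 → F) (i : Fin 4) :
    (XD r t *ᵥ v) (.inl i) = v (.inl i) + ((corD r i : ℤ) : F) * t * v (.inr (Fin.rev r)) := by
  have : (XD r t *ᵥ v) (.inl i) = ∑ j : Fin 4 ⊕ Fin 24, XD r t (.inl i) j * v j := rfl
  rw [this, Fintype.sum_sum_type]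
  simp only [XD_hh, XD_hr', ite_mul, one_mul, zero_mul, Finset.sum_ite_eq, Finset.sum_ite_eq',
    Finset.mem_univ, if_true]

theorem XD_mulVec_inr (r : Fin 24) (t : F) (v : Fin 4 ⊕ Fin 24 → F) (u : Fin 24) :
    (XD r t *ᵥ v) (.inr u) = v (.inr u)
      + (if u = r then - t * (∑ j : Fin 4, ((carD j r : ℤ) : F) * v (.inl j))
          - t ^ 2 * v (.inr (Fin.rev r)) else 0)
      + ((sgnD r u : ℤ) : F) * t * v (.inr (srcD r u)) := by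
  have : (XD r t *ᵥ v) (.inr u) = ∑ j : Fin 4 ⊕ Fin 24, XD r t (.inr u) j * v j := rfl
  rw [this, Fintype.sum_sum_type]
  simp only [XD_rh, XD_rr', add_mul, Finset.sum_add_distrib, ite_mul, one_mul, zero_mul,
    Finset.sum_ite_eq, Finset.sum_ite_eq', Finset.mem_univ, if_true]
  by_cases hu : u = r
  · simp only [hu, if_true, Finset.mul_sum]
    have : ∑ x : Fin 4, -((carD x r : ℤ) : F) * t * v (Sum.inl x)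
        = ∑ x : Fin 4, -t * (((carD x r : ℤ) : F) * v (Sum.inl x)) :=
      Finset.sum_congr rfl (fun x _ => by ring)
    rw [this]
    ring
  · simp only [hu, if_false, Finset.sum_const_zero]
    ring

end Cfsg.Agent.Lib.Helper14
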