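import Mathlib
import Cfsg.Agent.Lib.Helper14.D4Model
import Cfsg.Agent.Lib.Helper14.D4Tab

/-! Root matrices in `O₈⁺` and the closed form of their congruence action. -/

set_option autoImplicit false

namespace Cfsg.Agent.Lib.Helper14

open Matrix Cfsg.Agent.Lib.Helper44 QuadraticMap

variable {F : Type*} [Field F]

local notation "I8" => (Fin 4 ⊕ Fin 4)
local notation "M8" => Matrix (Fin 4 ⊕ Fin 4) (Fin 4 ⊕ Fin 4) F
local notation "V28" => (Fin 4 ⊕ Fin 24 → F)

/-- the root matrix `1 + c (E_{a,-b} - E_{b,-a})` -/
def rootM (a b : I8) (c : F) : M8 :=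
  1 + c • (Matrix.single a b.swap 1 - Matrix.single b a.swap 1)

theorem single_mul_apply' (p q : I8) (X : M8) (i l : I8) :
    (Matrix.single p q (1 : F) * X) i l = if i = p then X q l else 0 := by
  by_cases h : i = p
  · subst h; simp
  · rw [if_neg h, Matrix.single_mul_apply_of_ne _ _ _ _ _ h]

theorem mul_single_apply' (p q : I8) (X : M8) (i l : I8) :
    (X * Matrix.single p q (1 : F)) i l = if l = q then X i p else 0 := by
  by_cases h : l = q
  · subst h; simp
  · rw [if_neg h, Matrix.mul_single_apply_of_ne _ _ _ _ _ h]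

theorem rootM_mul_apply (a b : I8) (c : F) (X : M8) (i l : I8) :
    (rootM a b c * X) i l = X i l
      + c * ((if i = a then X b.swap l else 0) - (if i = b then X a.swap l else 0)) := by
  unfold rootM
  rw [add_mul, one_mul, smul_mul_assoc, sub_mul, Matrix.add_apply, Matrix.smul_apply,
    Matrix.sub_apply, single_mul_apply', single_mul_apply', smul_eq_mul]

theorem mul_rootM_transpose_apply (a b : I8) (c : F) (Y : M8) (i j : I8) :
    (Y * (rootM a b c)ᵀ) i j = Y i j
      + c * ((if j = a then Y i b.swap else 0) - (if j = b then Y i a.swap else 0)) := by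
  unfold rootM
  rw [Matrix.transpose_add, Matrix.transpose_one, Matrix.transpose_smul, Matrix.transpose_sub,
    Matrix.transpose_single, Matrix.transpose_single, mul_add, mul_one, mul_smul_comm, mul_sub,
    Matrix.add_apply, Matrix.smul_apply, Matrix.sub_apply, mul_single_apply', mul_single_apply',
    smul_eq_mul]

end Cfsg.Agent.Lib.Helper14
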