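import Mathlib
import Cfsg.Agent.Lib.Helper14.D4Root

/-! Generated: the matrices `x_r(t)` of `chevD4` agree with the action of the root matrices. -/

set_option autoImplicit false

namespace Cfsg.Agent.Lib.Helper14

open Matrix Cfsg.Agent.Lib.Helper44

variable {F : Type*} [Field F]

local notation "M8" => Matrix (Fin 4 ⊕ Fin 4) (Fin 4 ⊕ Fin 4) F
local notation "V28" => (Fin 4 ⊕ Fin 24 → F)

theorem sgnD_row0 : sgnD 0 = ![0, 1, -1, -1, 1, 0, -1, 1, 1, -1, 0, 0, 0, 0, 0, 0, 0, 0, 0, 0, 0, 0, 0, 0] := rfl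
theorem srcD_row0 : srcD 0 = ![0, 14, 15, 16, 17, 0, 19, 20, 21, 22, 0, 0, 0, 0, 0, 0, 0, 0, 0, 0, 0, 0, 0, 0] := rfl
theorem corD_row0 : corD 0 = ![-1, -2, -1, -1] := by funext i; fin_cases i <;> rfl
theorem carD0_0 : carD 0 0 = 0 := rfl
theorem carD1_0 : carD 1 0 = -1 := rfl
theorem carD2_0 : carD 2 0 = 0 := rfl
theorem carD3_0 : carD 3 0 = 0 := rfl
theorem rev_0 : Fin.rev (0 : Fin 24) = 23 := rfl

set_option maxHeartbeats 8000000 in
theorem D4_check0 (c : F) (v : V28) :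
    e28 (XD 0 c *ᵥ v) - (rootM (.inr 0) (.inr 1) c * x28f v * (rootM (.inr 0) (.inr 1) c)ᵀ,
      - v (.inl 3)) ∈ (U28 : Submodule F (M8 × F)) := by
  rw [mem_U28, e28_apply]
  constructor
  · ext i j
    rcases i with i | i <;> rcases j with j | j <;> fin_cases i <;> fin_cases j <;>
      simp [x28f, mul_rootM_transpose_apply, rootM_mul_apply, XD_mulVec_inl, XD_mulVec_inr,
        sgnD_row0, srcD_row0, corD_row0, carD0_0, carD1_0, carD2_0, carD3_0, rev_0,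
        Fin.sum_univ_four] <;> ring
  · simp [qs, x28f, mul_rootM_transpose_apply, rootM_mul_apply, XD_mulVec_inl, XD_mulVec_inr,
        sgnD_row0, srcD_row0, corD_row0, carD0_0, carD1_0, carD2_0, carD3_0, rev_0,
        Fin.sum_univ_four] <;> ring

theorem sgnD_row1 : sgnD 1 = ![1, 0, 1, 1, 0, 1, -1, 0, 0, 0, -1, -1, 0, 0, -1, 0, 0, 0, 0, 0, 0, 0, 0, 0] := rfl
theorem srcD_row1 : srcD 1 = ![9, 0, 12, 13, 0, 17, 18, 0, 0, 0, 20, 21, 0, 0, 23, 0, 0, 0, 0, 0, 0, 0, 0, 0] := rfl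
theorem corD_row1 : corD 1 = ![-1, -1, -1, -1] := by funext i; fin_cases i <;> rfl
theorem carD0_1 : carD 0 1 = -1 := rfl
theorem carD1_1 : carD 1 1 = 1 := rfl
theorem carD2_1 : carD 2 1 = -1 := rfl
theorem carD3_1 : carD 3 1 = -1 := rfl
theorem rev_1 : Fin.rev (1 : Fin 24) = 22 := rfl

set_option maxHeartbeats 8000000 in
theorem D4_check1 (c : F) (v : V28) :
    e28 (XD 1 c *ᵥ v) - (rootM (.inr 0) (.inr 2) c * x28f v * (rootM (.inr 0) (.inr 2) c)ᵀ,
      - v (.inl 3)) ∈ (U28 : Submodule F (M8 × F)) := by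
  rw [mem_U28, e28_apply]
  constructor
  · ext i j
    rcases i with i | i <;> rcases j with j | j <;> fin_cases i <;> fin_cases j <;>
      simp [x28f, mul_rootM_transpose_apply, rootM_mul_apply, XD_mulVec_inl, XD_mulVec_inr,
        sgnD_row1, srcD_row1, corD_row1, carD0_1, carD1_1, carD2_1, carD3_1, rev_1,
        Fin.sum_univ_four] <;> ring
  · simp [qs, x28f, mul_rootM_transpose_apply, rootM_mul_apply, XD_mulVec_inl, XD_mulVec_inr,
        sgnD_row1, srcD_row1, corD_row1, carD0_1, carD1_1, carD2_1, carD3_1, rev_1,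
        Fin.sum_univ_four] <;> ring

theorem sgnD_row2 : sgnD 2 = ![-1, 1, 0, 0, 1, 1, 0, -1, 0, 0, -1, 0, -1, 0, 0, 1, 0, 0, 0, 0, 0, 0, 0, 0] := rfl
theorem srcD_row2 : srcD 2 = ![8, 11, 0, 0, 13, 16, 0, 18, 0, 0, 19, 0, 22, 0, 0, 23, 0, 0, 0, 0, 0, 0, 0, 0] := rfl
theorem corD_row2 : corD 2 = ![-1, -1, -1, 0] := by funext i; fin_cases i <;> rfl
theorem carD0_2 : carD 0 2 = -1 := rfl
theorem carD1_2 : carD 1 2 = 0 := rfl
theorem carD2_2 : carD 2 2 = -1 := rfl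
theorem carD3_2 : carD 3 2 = 1 := rfl
theorem rev_2 : Fin.rev (2 : Fin 24) = 21 := rfl

set_option maxHeartbeats 8000000 in
theorem D4_check2 (c : F) (v : V28) :
    e28 (XD 2 c *ᵥ v) - (rootM (.inl 3) (.inr 0) c * x28f v * (rootM (.inl 3) (.inr 0) c)ᵀ,
      - v (.inl 3)) ∈ (U28 : Submodule F (M8 × F)) := by
  rw [mem_U28, e28_apply]
  constructor
  · ext i j
    rcases i with i | i <;> rcases j with j | j <;> fin_cases i <;> fin_cases j <;>
      simp [x28f, mul_rootM_transpose_apply, rootM_mul_apply, XD_mulVec_inl, XD_mulVec_inr,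
        sgnD_row2, srcD_row2, corD_row2, carD0_2, carD1_2, carD2_2, carD3_2, rev_2,
        Fin.sum_univ_four] <;> ring
  · simp [qs, x28f, mul_rootM_transpose_apply, rootM_mul_apply, XD_mulVec_inl, XD_mulVec_inr,
        sgnD_row2, srcD_row2, corD_row2, carD0_2, carD1_2, carD2_2, carD3_2, rev_2,
        Fin.sum_univ_four] <;> ring

theorem sgnD_row3 : sgnD 3 = ![-1, 1, 0, 0, 1, 1, 0, 0, -1, 0, 0, -1, 0, -1, 0, 0, 1, 0, 0, 0, 0, 0, 0, 0] := rfl
theorem srcD_row3 : srcD 3 = ![7, 10, 0, 0, 12, 15, 0, 0, 18, 0, 0, 19, 0, 22, 0, 0, 23, 0, 0, 0, 0, 0, 0, 0] := rfl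
theorem corD_row3 : corD 3 = ![-1, -1, 0, -1] := by funext i; fin_cases i <;> rfl
theorem carD0_3 : carD 0 3 = -1 := rfl
theorem carD1_3 : carD 1 3 = 0 := rfl
theorem carD2_3 : carD 2 3 = 1 := rfl
theorem carD3_3 : carD 3 3 = -1 := rfl
theorem rev_3 : Fin.rev (3 : Fin 24) = 20 := rfl

set_option maxHeartbeats 8000000 in
theorem D4_check3 (c : F) (v : V28) :
    e28 (XD 3 c *ᵥ v) - (rootM (.inr 0) (.inr 3) (-c) * x28f v * (rootM (.inr 0) (.inr 3) (-c))ᵀ,
      - v (.inl 3)) ∈ (U28 : Submodule F (M8 × F)) := by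
  rw [mem_U28, e28_apply]
  constructor
  · ext i j
    rcases i with i | i <;> rcases j with j | j <;> fin_cases i <;> fin_cases j <;>
      simp [x28f, mul_rootM_transpose_apply, rootM_mul_apply, XD_mulVec_inl, XD_mulVec_inr,
        sgnD_row3, srcD_row3, corD_row3, carD0_3, carD1_3, carD2_3, carD3_3, rev_3,
        Fin.sum_univ_four] <;> ring
  · simp [qs, x28f, mul_rootM_transpose_apply, rootM_mul_apply, XD_mulVec_inl, XD_mulVec_inr,
        sgnD_row3, srcD_row3, corD_row3, carD0_3, carD1_3, carD2_3, carD3_3, rev_3,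
        Fin.sum_univ_four] <;> ring

theorem sgnD_row4 : sgnD 4 = ![1, 0, 1, 1, 0, 1, 0, 0, 0, -1, 0, 0, -1, -1, 0, 0, 0, -1, 0, 0, 0, 0, 0, 0] := rfl
theorem srcD_row4 : srcD 4 = ![6, 0, 10, 11, 0, 14, 0, 0, 0, 18, 0, 0, 20, 21, 0, 0, 0, 23, 0, 0, 0, 0, 0, 0] := rfl
theorem corD_row4 : corD 4 = ![-1, -1, 0, 0] := by funext i; fin_cases i <;> rfl
theorem carD0_4 : carD 0 4 = -1 := rfl
theorem carD1_4 : carD 1 4 = -1 := rfl
theorem carD2_4 : carD 2 4 = 1 := rfl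
theorem carD3_4 : carD 3 4 = 1 := rfl
theorem rev_4 : Fin.rev (4 : Fin 24) = 19 := rfl

set_option maxHeartbeats 8000000 in
theorem D4_check4 (c : F) (v : V28) :
    e28 (XD 4 c *ᵥ v) - (rootM (.inl 2) (.inr 0) c * x28f v * (rootM (.inl 2) (.inr 0) c)ᵀ,
      - v (.inl 3)) ∈ (U28 : Submodule F (M8 × F)) := by
  rw [mem_U28, e28_apply]
  constructor
  · ext i j
    rcases i with i | i <;> rcases j with j | j <;> fin_cases i <;> fin_cases j <;>
      simp [x28f, mul_rootM_transpose_apply, rootM_mul_apply, XD_mulVec_inl, XD_mulVec_inr,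
        sgnD_row4, srcD_row4, corD_row4, carD0_4, carD1_4, carD2_4, carD3_4, rev_4,
        Fin.sum_univ_four] <;> ring
  · simp [qs, x28f, mul_rootM_transpose_apply, rootM_mul_apply, XD_mulVec_inl, XD_mulVec_inr,
        sgnD_row4, srcD_row4, corD_row4, carD0_4, carD1_4, carD2_4, carD3_4, rev_4,
        Fin.sum_univ_four] <;> ring

theorem sgnD_row5 : sgnD 5 = ![0, 1, 1, 1, 1, 0, 0, 0, 0, 0, 0, 0, 0, 0, -1, -1, -1, -1, 0, 0, 0, 0, 0, 0] := rfl
theorem srcD_row5 : srcD 5 = ![0, 6, 7, 8, 9, 0, 0, 0, 0, 0, 0, 0, 0, 0, 19, 20, 21, 22, 0, 0, 0, 0, 0, 0] := rfl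
theorem corD_row5 : corD 5 = ![-1, 0, 0, 0] := by funext i; fin_cases i <;> rfl
theorem carD0_5 : carD 0 5 = -2 := rfl
theorem carD1_5 : carD 1 5 = 1 := rfl
theorem carD2_5 : carD 2 5 = 0 := rfl
theorem carD3_5 : carD 3 5 = 0 := rfl
theorem rev_5 : Fin.rev (5 : Fin 24) = 18 := rfl

set_option maxHeartbeats 8000000 in
theorem D4_check5 (c : F) (v : V28) :
    e28 (XD 5 c *ᵥ v) - (rootM (.inl 1) (.inr 0) (-c) * x28f v * (rootM (.inl 1) (.inr 0) (-c))ᵀ,
      - v (.inl 3)) ∈ (U28 : Submodule F (M8 × F)) := by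
  rw [mem_U28, e28_apply]
  constructor
  · ext i j
    rcases i with i | i <;> rcases j with j | j <;> fin_cases i <;> fin_cases j <;>
      simp [x28f, mul_rootM_transpose_apply, rootM_mul_apply, XD_mulVec_inl, XD_mulVec_inr,
        sgnD_row5, srcD_row5, corD_row5, carD0_5, carD1_5, carD2_5, carD3_5, rev_5,
        Fin.sum_univ_four] <;> ring
  · simp [qs, x28f, mul_rootM_transpose_apply, rootM_mul_apply, XD_mulVec_inl, XD_mulVec_inr,
        sgnD_row5, srcD_row5, corD_row5, carD0_5, carD1_5, carD2_5, carD3_5, rev_5,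
        Fin.sum_univ_four] <;> ring

end Cfsg.Agent.Lib.Helper14
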