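import Mathlib
import Cfsg.Agent.Lib.Helper14.D4Root

/-! Generated: the matrices `x_r(t)` of `chevD4` agree with the action of the root matrices. -/

set_option autoImplicit false

namespace Cfsg.Agent.Lib.Helper14

open Matrix Cfsg.Agent.Lib.Helper44

variable {F : Type*} [Field F]

local notation "M8" => Matrix (Fin 4 ⊕ Fin 4) (Fin 4 ⊕ Fin 4) F
local notation "V28" => (Fin 4 ⊕ Fin 24 → F)

theorem sgnD_row6 : sgnD 6 = ![-1, -1, 0, 0, 0, 0, 0, 1, 1, 0, -1, -1, 0, 0, 0, 0, 0, 0, 1, 1, 0, 0, 0, 0] := rfl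
theorem srcD_row6 : srcD 6 = ![4, 5, 0, 0, 0, 0, 0, 12, 13, 0, 15, 16, 0, 0, 0, 0, 0, 0, 22, 23, 0, 0, 0, 0] := rfl
theorem corD_row6 : corD 6 = ![0, -1, -1, -1] := by funext i; fin_cases i <;> rfl
theorem carD0_6 : carD 0 6 = 1 := rfl
theorem carD1_6 : carD 1 6 = 0 := rfl
theorem carD2_6 : carD 2 6 = -1 := rfl
theorem carD3_6 : carD 3 6 = -1 := rfl
theorem rev_6 : Fin.rev (6 : Fin 24) = 17 := rfl

set_option maxHeartbeats 8000000 in
theorem D4_check6 (c : F) (v : V28) :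
    e28 (XD 6 c *ᵥ v) - (rootM (.inr 1) (.inr 2) c * x28f v * (rootM (.inr 1) (.inr 2) c)ᵀ,
      - v (.inl 3)) ∈ (U28 : Submodule F (M8 × F)) := by
  rw [mem_U28, e28_apply]
  constructor
  · ext i j
    rcases i with i | i <;> rcases j with j | j <;> fin_cases i <;> fin_cases j <;>
      simp [x28f, mul_rootM_transpose_apply, rootM_mul_apply, XD_mulVec_inl, XD_mulVec_inr,
        sgnD_row6, srcD_row6, corD_row6, carD0_6, carD1_6, carD2_6, carD3_6, rev_6,
        Fin.sum_univ_four] <;> ring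
  · simp [qs, x28f, mul_rootM_transpose_apply, rootM_mul_apply, XD_mulVec_inl, XD_mulVec_inr,
        sgnD_row6, srcD_row6, corD_row6, carD0_6, carD1_6, carD2_6, carD3_6, rev_6,
        Fin.sum_univ_four] <;> ring

theorem sgnD_row7 : sgnD 7 = ![1, 0, -1, 0, 0, 0, 1, 0, 0, 1, -1, 0, -1, 0, 0, 0, 0, 0, 1, 0, -1, 0, 0, 0] := rfl
theorem srcD_row7 : srcD 7 = ![3, 0, 5, 0, 0, 0, 11, 0, 0, 13, 14, 0, 17, 0, 0, 0, 0, 0, 21, 0, 23, 0, 0, 0] := rfl
theorem corD_row7 : corD 7 = ![0, -1, -1, 0] := by funext i; fin_cases i <;> rfl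
theorem carD0_7 : carD 0 7 = 1 := rfl
theorem carD1_7 : carD 1 7 = -1 := rfl
theorem carD2_7 : carD 2 7 = -1 := rfl
theorem carD3_7 : carD 3 7 = 1 := rfl
theorem rev_7 : Fin.rev (7 : Fin 24) = 16 := rfl

set_option maxHeartbeats 8000000 in
theorem D4_check7 (c : F) (v : V28) :
    e28 (XD 7 c *ᵥ v) - (rootM (.inl 3) (.inr 1) c * x28f v * (rootM (.inl 3) (.inr 1) c)ᵀ,
      - v (.inl 3)) ∈ (U28 : Submodule F (M8 × F)) := by
  rw [mem_U28, e28_apply]
  constructor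
  · ext i j
    rcases i with i | i <;> rcases j with j | j <;> fin_cases i <;> fin_cases j <;>
      simp [x28f, mul_rootM_transpose_apply, rootM_mul_apply, XD_mulVec_inl, XD_mulVec_inr,
        sgnD_row7, srcD_row7, corD_row7, carD0_7, carD1_7, carD2_7, carD3_7, rev_7,
        Fin.sum_univ_four] <;> ring
  · simp [qs, x28f, mul_rootM_transpose_apply, rootM_mul_apply, XD_mulVec_inl, XD_mulVec_inr,
        sgnD_row7, srcD_row7, corD_row7, carD0_7, carD1_7, carD2_7, carD3_7, rev_7,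
        Fin.sum_univ_four] <;> ring

theorem sgnD_row8 : sgnD 8 = ![1, 0, 0, -1, 0, 0, 1, 0, 0, 1, 0, -1, 0, -1, 0, 0, 0, 0, 1, 0, 0, -1, 0, 0] := rfl
theorem srcD_row8 : srcD 8 = ![2, 0, 0, 5, 0, 0, 10, 0, 0, 12, 0, 14, 0, 17, 0, 0, 0, 0, 20, 0, 0, 23, 0, 0] := rfl
theorem corD_row8 : corD 8 = ![0, -1, 0, -1] := by funext i; fin_cases i <;> rfl
theorem carD0_8 : carD 0 8 = 1 := rfl
theorem carD1_8 : carD 1 8 = -1 := rfl
theorem carD2_8 : carD 2 8 = 1 := rfl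
theorem carD3_8 : carD 3 8 = -1 := rfl
theorem rev_8 : Fin.rev (8 : Fin 24) = 15 := rfl

set_option maxHeartbeats 8000000 in
theorem D4_check8 (c : F) (v : V28) :
    e28 (XD 8 c *ᵥ v) - (rootM (.inr 1) (.inr 3) (-c) * x28f v * (rootM (.inr 1) (.inr 3) (-c))ᵀ,
      - v (.inl 3)) ∈ (U28 : Submodule F (M8 × F)) := by
  rw [mem_U28, e28_apply]
  constructor
  · ext i j
    rcases i with i | i <;> rcases j with j | j <;> fin_cases i <;> fin_cases j <;>
      simp [x28f, mul_rootM_transpose_apply, rootM_mul_apply, XD_mulVec_inl, XD_mulVec_inr,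
        sgnD_row8, srcD_row8, corD_row8, carD0_8, carD1_8, carD2_8, carD3_8, rev_8,
        Fin.sum_univ_four] <;> ring
  · simp [qs, x28f, mul_rootM_transpose_apply, rootM_mul_apply, XD_mulVec_inl, XD_mulVec_inr,
        sgnD_row8, srcD_row8, corD_row8, carD0_8, carD1_8, carD2_8, carD3_8, rev_8,
        Fin.sum_univ_four] <;> ring

theorem sgnD_row9 : sgnD 9 = ![-1, 0, 0, 0, -1, 0, 0, 1, 1, 0, 0, 0, -1, -1, 0, 0, 0, 0, 1, 0, 0, 0, 1, 0] := rfl
theorem srcD_row9 : srcD 9 = ![1, 0, 0, 0, 5, 0, 0, 10, 11, 0, 0, 0, 15, 16, 0, 0, 0, 0, 19, 0, 0, 0, 23, 0] := rfl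
theorem corD_row9 : corD 9 = ![0, -1, 0, 0] := by funext i; fin_cases i <;> rfl
theorem carD0_9 : carD 0 9 = 1 := rfl
theorem carD1_9 : carD 1 9 = -2 := rfl
theorem carD2_9 : carD 2 9 = 1 := rfl
theorem carD3_9 : carD 3 9 = 1 := rfl
theorem rev_9 : Fin.rev (9 : Fin 24) = 14 := rfl

set_option maxHeartbeats 8000000 in
theorem D4_check9 (c : F) (v : V28) :
    e28 (XD 9 c *ᵥ v) - (rootM (.inl 2) (.inr 1) c * x28f v * (rootM (.inl 2) (.inr 1) c)ᵀ,
      - v (.inl 3)) ∈ (U28 : Submodule F (M8 × F)) := by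
  rw [mem_U28, e28_apply]
  constructor
  · ext i j
    rcases i with i | i <;> rcases j with j | j <;> fin_cases i <;> fin_cases j <;>
      simp [x28f, mul_rootM_transpose_apply, rootM_mul_apply, XD_mulVec_inl, XD_mulVec_inr,
        sgnD_row9, srcD_row9, corD_row9, carD0_9, carD1_9, carD2_9, carD3_9, rev_9,
        Fin.sum_univ_four] <;> ring
  · simp [qs, x28f, mul_rootM_transpose_apply, rootM_mul_apply, XD_mulVec_inl, XD_mulVec_inr,
        sgnD_row9, srcD_row9, corD_row9, carD0_9, carD1_9, carD2_9, carD3_9, rev_9,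
        Fin.sum_univ_four] <;> ring

theorem sgnD_row10 : sgnD 10 = ![0, -1, -1, 0, 0, 0, -1, -1, 0, 0, 0, 0, 0, 0, 1, 1, 0, 0, 0, 1, 1, 0, 0, 0] := rfl
theorem srcD_row10 : srcD 10 = ![0, 3, 4, 0, 0, 0, 8, 9, 0, 0, 0, 0, 0, 0, 16, 17, 0, 0, 0, 21, 22, 0, 0, 0] := rfl
theorem corD_row10 : corD 10 = ![0, 0, -1, 0] := by funext i; fin_cases i <;> rfl
theorem carD0_10 : carD 0 10 = 0 := rfl
theorem carD1_10 : carD 1 10 = 1 := rfl
theorem carD2_10 : carD 2 10 = -2 := rfl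
theorem carD3_10 : carD 3 10 = 0 := rfl
theorem rev_10 : Fin.rev (10 : Fin 24) = 13 := rfl

set_option maxHeartbeats 8000000 in
theorem D4_check10 (c : F) (v : V28) :
    e28 (XD 10 c *ᵥ v) - (rootM (.inl 3) (.inr 2) (-c) * x28f v * (rootM (.inl 3) (.inr 2) (-c))ᵀ,
      - v (.inl 3)) ∈ (U28 : Submodule F (M8 × F)) := by
  rw [mem_U28, e28_apply]
  constructor
  · ext i j
    rcases i with i | i <;> rcases j with j | j <;> fin_cases i <;> fin_cases j <;>
      simp [x28f, mul_rootM_transpose_apply, rootM_mul_apply, XD_mulVec_inl, XD_mulVec_inr,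
        sgnD_row10, srcD_row10, corD_row10, carD0_10, carD1_10, carD2_10, carD3_10, rev_10,
        Fin.sum_univ_four] <;> ring
  · simp [qs, x28f, mul_rootM_transpose_apply, rootM_mul_apply, XD_mulVec_inl, XD_mulVec_inr,
        sgnD_row10, srcD_row10, corD_row10, carD0_10, carD1_10, carD2_10, carD3_10, rev_10,
        Fin.sum_univ_four] <;> ring

theorem sgnD_row11 : sgnD 11 = ![0, -1, 0, -1, 0, 0, -1, 0, -1, 0, 0, 0, 0, 0, 1, 0, 1, 0, 0, 1, 0, 1, 0, 0] := rfl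
theorem srcD_row11 : srcD 11 = ![0, 2, 0, 4, 0, 0, 7, 0, 9, 0, 0, 0, 0, 0, 15, 0, 17, 0, 0, 20, 0, 22, 0, 0] := rfl
theorem corD_row11 : corD 11 = ![0, 0, 0, -1] := by funext i; fin_cases i <;> rfl
theorem carD0_11 : carD 0 11 = 0 := rfl
theorem carD1_11 : carD 1 11 = 1 := rfl
theorem carD2_11 : carD 2 11 = 0 := rfl
theorem carD3_11 : carD 3 11 = -2 := rfl
theorem rev_11 : Fin.rev (11 : Fin 24) = 12 := rfl

set_option maxHeartbeats 8000000 in
theorem D4_check11 (c : F) (v : V28) :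
    e28 (XD 11 c *ᵥ v) - (rootM (.inr 2) (.inr 3) c * x28f v * (rootM (.inr 2) (.inr 3) c)ᵀ,
      - v (.inl 3)) ∈ (U28 : Submodule F (M8 × F)) := by
  rw [mem_U28, e28_apply]
  constructor
  · ext i j
    rcases i with i | i <;> rcases j with j | j <;> fin_cases i <;> fin_cases j <;>
      simp [x28f, mul_rootM_transpose_apply, rootM_mul_apply, XD_mulVec_inl, XD_mulVec_inr,
        sgnD_row11, srcD_row11, corD_row11, carD0_11, carD1_11, carD2_11, carD3_11, rev_11,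
        Fin.sum_univ_four] <;> ring
  · simp [qs, x28f, mul_rootM_transpose_apply, rootM_mul_apply, XD_mulVec_inl, XD_mulVec_inr,
        sgnD_row11, srcD_row11, corD_row11, carD0_11, carD1_11, carD2_11, carD3_11, rev_11,
        Fin.sum_univ_four] <;> ring

end Cfsg.Agent.Lib.Helper14
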