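import Mathlib
import Cfsg.Agent.Lib.Helper14.D4Root

/-! Generated: the matrices `x_r(t)` of `chevD4` agree with the action of the root matrices. -/

set_option autoImplicit false

namespace Cfsg.Agent.Lib.Helper14

open Matrix Cfsg.Agent.Lib.Helper44

variable {F : Type*} [Field F]

local notation "M8" => Matrix (Fin 4 ⊕ Fin 4) (Fin 4 ⊕ Fin 4) F
local notation "V28" => (Fin 4 ⊕ Fin 24 → F)

theorem sgnD_row12 : sgnD 12 = ![0, 0, -1, 0, -1, 0, 0, -1, 0, -1, 0, 0, 0, 0, 0, 1, 0, 1, 0, 0, 1, 0, 1, 0] := rfl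
theorem srcD_row12 : srcD 12 = ![0, 0, 1, 0, 3, 0, 0, 6, 0, 8, 0, 0, 0, 0, 0, 14, 0, 16, 0, 0, 19, 0, 21, 0] := rfl
theorem corD_row12 : corD 12 = ![0, 0, 0, 1] := by funext i; fin_cases i <;> rfl
theorem carD0_12 : carD 0 12 = 0 := rfl
theorem carD1_12 : carD 1 12 = -1 := rfl
theorem carD2_12 : carD 2 12 = 0 := rfl
theorem carD3_12 : carD 3 12 = 2 := rfl
theorem rev_12 : Fin.rev (12 : Fin 24) = 11 := rfl

set_option maxHeartbeats 8000000 in
theorem D4_check12 (c : F) (v : V28) :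
    e28 (XD 12 c *ᵥ v) - (rootM (.inl 2) (.inl 3) (-c) * x28f v * (rootM (.inl 2) (.inl 3) (-c))ᵀ,
      - v (.inl 3)) ∈ (U28 : Submodule F (M8 × F)) := by
  rw [mem_U28, e28_apply]
  constructor
  · ext i j
    rcases i with i | i <;> rcases j with j | j <;> fin_cases i <;> fin_cases j <;>
      simp [x28f, mul_rootM_transpose_apply, rootM_mul_apply, XD_mulVec_inl, XD_mulVec_inr,
        sgnD_row12, srcD_row12, corD_row12, carD0_12, carD1_12, carD2_12, carD3_12, rev_12,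
        Fin.sum_univ_four] <;> ring
  · simp [qs, x28f, mul_rootM_transpose_apply, rootM_mul_apply, XD_mulVec_inl, XD_mulVec_inr,
        sgnD_row12, srcD_row12, corD_row12, carD0_12, carD1_12, carD2_12, carD3_12, rev_12,
        Fin.sum_univ_four] <;> ring

theorem sgnD_row13 : sgnD 13 = ![0, 0, 0, -1, -1, 0, 0, 0, -1, -1, 0, 0, 0, 0, 0, 0, 1, 1, 0, 0, 0, 1, 1, 0] := rfl
theorem srcD_row13 : srcD 13 = ![0, 0, 0, 1, 2, 0, 0, 0, 6, 7, 0, 0, 0, 0, 0, 0, 14, 15, 0, 0, 0, 19, 20, 0] := rfl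
theorem corD_row13 : corD 13 = ![0, 0, 1, 0] := by funext i; fin_cases i <;> rfl
theorem carD0_13 : carD 0 13 = 0 := rfl
theorem carD1_13 : carD 1 13 = -1 := rfl
theorem carD2_13 : carD 2 13 = 2 := rfl
theorem carD3_13 : carD 3 13 = 0 := rfl
theorem rev_13 : Fin.rev (13 : Fin 24) = 10 := rfl

set_option maxHeartbeats 8000000 in
theorem D4_check13 (c : F) (v : V28) :
    e28 (XD 13 c *ᵥ v) - (rootM (.inl 2) (.inr 3) (-c) * x28f v * (rootM (.inl 2) (.inr 3) (-c))ᵀ,
      - v (.inl 3)) ∈ (U28 : Submodule F (M8 × F)) := by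
  rw [mem_U28, e28_apply]
  constructor
  · ext i j
    rcases i with i | i <;> rcases j with j | j <;> fin_cases i <;> fin_cases j <;>
      simp [x28f, mul_rootM_transpose_apply, rootM_mul_apply, XD_mulVec_inl, XD_mulVec_inr,
        sgnD_row13, srcD_row13, corD_row13, carD0_13, carD1_13, carD2_13, carD3_13, rev_13,
        Fin.sum_univ_four] <;> ring
  · simp [qs, x28f, mul_rootM_transpose_apply, rootM_mul_apply, XD_mulVec_inl, XD_mulVec_inr,
        sgnD_row13, srcD_row13, corD_row13, carD0_13, carD1_13, carD2_13, carD3_13, rev_13,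
        Fin.sum_univ_four] <;> ring

theorem sgnD_row14 : sgnD 14 = ![0, -1, 0, 0, 0, -1, 0, 0, 0, 0, 1, 1, 0, 0, 0, -1, -1, 0, 0, 1, 0, 0, 0, 1] := rfl
theorem srcD_row14 : srcD 14 = ![0, 0, 0, 0, 0, 4, 0, 0, 0, 0, 7, 8, 0, 0, 0, 12, 13, 0, 0, 18, 0, 0, 0, 22] := rfl
theorem corD_row14 : corD 14 = ![0, 1, 0, 0] := by funext i; fin_cases i <;> rfl
theorem carD0_14 : carD 0 14 = -1 := rfl
theorem carD1_14 : carD 1 14 = 2 := rfl
theorem carD2_14 : carD 2 14 = -1 := rfl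
theorem carD3_14 : carD 3 14 = -1 := rfl
theorem rev_14 : Fin.rev (14 : Fin 24) = 9 := rfl

set_option maxHeartbeats 8000000 in
theorem D4_check14 (c : F) (v : V28) :
    e28 (XD 14 c *ᵥ v) - (rootM (.inl 1) (.inr 2) c * x28f v * (rootM (.inl 1) (.inr 2) c)ᵀ,
      - v (.inl 3)) ∈ (U28 : Submodule F (M8 × F)) := by
  rw [mem_U28, e28_apply]
  constructor
  · ext i j
    rcases i with i | i <;> rcases j with j | j <;> fin_cases i <;> fin_cases j <;>
      simp [x28f, mul_rootM_transpose_apply, rootM_mul_apply, XD_mulVec_inl, XD_mulVec_inr,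
        sgnD_row14, srcD_row14, corD_row14, carD0_14, carD1_14, carD2_14, carD3_14, rev_14,
        Fin.sum_univ_four] <;> ring
  · simp [qs, x28f, mul_rootM_transpose_apply, rootM_mul_apply, XD_mulVec_inl, XD_mulVec_inr,
        sgnD_row14, srcD_row14, corD_row14, carD0_14, carD1_14, carD2_14, carD3_14, rev_14,
        Fin.sum_univ_four] <;> ring

theorem sgnD_row15 : sgnD 15 = ![0, 0, 1, 0, 0, -1, 0, 0, 0, 0, 1, 0, 1, 0, -1, 0, 0, -1, 0, 0, 1, 0, 0, -1] := rfl
theorem srcD_row15 : srcD 15 = ![0, 0, 0, 0, 0, 3, 0, 0, 0, 0, 6, 0, 9, 0, 11, 0, 0, 13, 0, 0, 18, 0, 0, 21] := rfl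
theorem corD_row15 : corD 15 = ![0, 1, 0, 1] := by funext i; fin_cases i <;> rfl
theorem carD0_15 : carD 0 15 = -1 := rfl
theorem carD1_15 : carD 1 15 = 1 := rfl
theorem carD2_15 : carD 2 15 = -1 := rfl
theorem carD3_15 : carD 3 15 = 1 := rfl
theorem rev_15 : Fin.rev (15 : Fin 24) = 8 := rfl

set_option maxHeartbeats 8000000 in
theorem D4_check15 (c : F) (v : V28) :
    e28 (XD 15 c *ᵥ v) - (rootM (.inl 1) (.inl 3) c * x28f v * (rootM (.inl 1) (.inl 3) c)ᵀ,
      - v (.inl 3)) ∈ (U28 : Submodule F (M8 × F)) := by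
  rw [mem_U28, e28_apply]
  constructor
  · ext i j
    rcases i with i | i <;> rcases j with j | j <;> fin_cases i <;> fin_cases j <;>
      simp [x28f, mul_rootM_transpose_apply, rootM_mul_apply, XD_mulVec_inl, XD_mulVec_inr,
        sgnD_row15, srcD_row15, corD_row15, carD0_15, carD1_15, carD2_15, carD3_15, rev_15,
        Fin.sum_univ_four] <;> ring
  · simp [qs, x28f, mul_rootM_transpose_apply, rootM_mul_apply, XD_mulVec_inl, XD_mulVec_inr,
        sgnD_row15, srcD_row15, corD_row15, carD0_15, carD1_15, carD2_15, carD3_15, rev_15,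
        Fin.sum_univ_four] <;> ring

theorem sgnD_row16 : sgnD 16 = ![0, 0, 0, 1, 0, -1, 0, 0, 0, 0, 0, 1, 0, 1, -1, 0, 0, -1, 0, 0, 0, 1, 0, -1] := rfl
theorem srcD_row16 : srcD 16 = ![0, 0, 0, 0, 0, 2, 0, 0, 0, 0, 0, 6, 0, 9, 10, 0, 0, 12, 0, 0, 0, 18, 0, 20] := rfl
theorem corD_row16 : corD 16 = ![0, 1, 1, 0] := by funext i; fin_cases i <;> rfl
theorem carD0_16 : carD 0 16 = -1 := rfl
theorem carD1_16 : carD 1 16 = 1 := rfl
theorem carD2_16 : carD 2 16 = 1 := rfl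
theorem carD3_16 : carD 3 16 = -1 := rfl
theorem rev_16 : Fin.rev (16 : Fin 24) = 7 := rfl

set_option maxHeartbeats 8000000 in
theorem D4_check16 (c : F) (v : V28) :
    e28 (XD 16 c *ᵥ v) - (rootM (.inl 1) (.inr 3) c * x28f v * (rootM (.inl 1) (.inr 3) c)ᵀ,
      - v (.inl 3)) ∈ (U28 : Submodule F (M8 × F)) := by
  rw [mem_U28, e28_apply]
  constructor
  · ext i j
    rcases i with i | i <;> rcases j with j | j <;> fin_cases i <;> fin_cases j <;>
      simp [x28f, mul_rootM_transpose_apply, rootM_mul_apply, XD_mulVec_inl, XD_mulVec_inr,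
        sgnD_row16, srcD_row16, corD_row16, carD0_16, carD1_16, carD2_16, carD3_16, rev_16,
        Fin.sum_univ_four] <;> ring
  · simp [qs, x28f, mul_rootM_transpose_apply, rootM_mul_apply, XD_mulVec_inl, XD_mulVec_inr,
        sgnD_row16, srcD_row16, corD_row16, carD0_16, carD1_16, carD2_16, carD3_16, rev_16,
        Fin.sum_univ_four] <;> ring

theorem sgnD_row17 : sgnD 17 = ![0, 0, 0, 0, -1, -1, 0, 0, 0, 0, 0, 0, 1, 1, 0, -1, -1, 0, 0, 0, 0, 0, 1, 1] := rfl
theorem srcD_row17 : srcD 17 = ![0, 0, 0, 0, 0, 1, 0, 0, 0, 0, 0, 0, 7, 8, 0, 10, 11, 0, 0, 0, 0, 0, 18, 19] := rfl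
theorem corD_row17 : corD 17 = ![0, 1, 1, 1] := by funext i; fin_cases i <;> rfl
theorem carD0_17 : carD 0 17 = -1 := rfl
theorem carD1_17 : carD 1 17 = 0 := rfl
theorem carD2_17 : carD 2 17 = 1 := rfl
theorem carD3_17 : carD 3 17 = 1 := rfl
theorem rev_17 : Fin.rev (17 : Fin 24) = 6 := rfl

set_option maxHeartbeats 8000000 in
theorem D4_check17 (c : F) (v : V28) :
    e28 (XD 17 c *ᵥ v) - (rootM (.inl 1) (.inl 2) (-c) * x28f v * (rootM (.inl 1) (.inl 2) (-c))ᵀ,
      - v (.inl 3)) ∈ (U28 : Submodule F (M8 × F)) := by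
  rw [mem_U28, e28_apply]
  constructor
  · ext i j
    rcases i with i | i <;> rcases j with j | j <;> fin_cases i <;> fin_cases j <;>
      simp [x28f, mul_rootM_transpose_apply, rootM_mul_apply, XD_mulVec_inl, XD_mulVec_inr,
        sgnD_row17, srcD_row17, corD_row17, carD0_17, carD1_17, carD2_17, carD3_17, rev_17,
        Fin.sum_univ_four] <;> ring
  · simp [qs, x28f, mul_rootM_transpose_apply, rootM_mul_apply, XD_mulVec_inl, XD_mulVec_inr,
        sgnD_row17, srcD_row17, corD_row17, carD0_17, carD1_17, carD2_17, carD3_17, rev_17,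
        Fin.sum_univ_four] <;> ring

end Cfsg.Agent.Lib.Helper14
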