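import Mathlib
import Cfsg.Agent.Lib.Helper14.D4Root

/-! Generated: the matrices `x_r(t)` of `chevD4` agree with the action of the root matrices. -/

set_option autoImplicit false

namespace Cfsg.Agent.Lib.Helper14

open Matrix Cfsg.Agent.Lib.Helper44

variable {F : Type*} [Field F]

local notation "M8" => Matrix (Fin 4 ⊕ Fin 4) (Fin 4 ⊕ Fin 4) F
local notation "V28" => (Fin 4 ⊕ Fin 24 → F)

theorem sgnD_row18 : sgnD 18 = ![0, 0, 0, 0, 0, 0, 1, 1, 1, 1, 0, 0, 0, 0, 0, 0, 0, 0, 0, -1, -1, -1, -1, 0] := rfl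
theorem srcD_row18 : srcD 18 = ![0, 0, 0, 0, 0, 0, 1, 2, 3, 4, 0, 0, 0, 0, 0, 0, 0, 0, 0, 14, 15, 16, 17, 0] := rfl
theorem corD_row18 : corD 18 = ![1, 0, 0, 0] := by funext i; fin_cases i <;> rfl
theorem carD0_18 : carD 0 18 = 2 := rfl
theorem carD1_18 : carD 1 18 = -1 := rfl
theorem carD2_18 : carD 2 18 = 0 := rfl
theorem carD3_18 : carD 3 18 = 0 := rfl
theorem rev_18 : Fin.rev (18 : Fin 24) = 5 := rfl

set_option maxHeartbeats 8000000 in
theorem D4_check18 (c : F) (v : V28) :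
    e28 (XD 18 c *ᵥ v) - (rootM (.inl 0) (.inr 1) (-c) * x28f v * (rootM (.inl 0) (.inr 1) (-c))ᵀ,
      - v (.inl 3)) ∈ (U28 : Submodule F (M8 × F)) := by
  rw [mem_U28, e28_apply]
  constructor
  · ext i j
    rcases i with i | i <;> rcases j with j | j <;> fin_cases i <;> fin_cases j <;>
      simp [x28f, mul_rootM_transpose_apply, rootM_mul_apply, XD_mulVec_inl, XD_mulVec_inr,
        sgnD_row18, srcD_row18, corD_row18, carD0_18, carD1_18, carD2_18, carD3_18, rev_18,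
        Fin.sum_univ_four] <;> ring
  · simp [qs, x28f, mul_rootM_transpose_apply, rootM_mul_apply, XD_mulVec_inl, XD_mulVec_inr,
        sgnD_row18, srcD_row18, corD_row18, carD0_18, carD1_18, carD2_18, carD3_18, rev_18,
        Fin.sum_univ_four] <;> ring

theorem sgnD_row19 : sgnD 19 = ![0, 0, 0, 0, 0, 0, 1, 0, 0, 0, 1, 1, 0, 0, 1, 0, 0, 0, -1, 0, -1, -1, 0, -1] := rfl
theorem srcD_row19 : srcD 19 = ![0, 0, 0, 0, 0, 0, 0, 0, 0, 0, 2, 3, 0, 0, 5, 0, 0, 0, 9, 0, 12, 13, 0, 17] := rfl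
theorem corD_row19 : corD 19 = ![1, 1, 0, 0] := by funext i; fin_cases i <;> rfl
theorem carD0_19 : carD 0 19 = 1 := rfl
theorem carD1_19 : carD 1 19 = 1 := rfl
theorem carD2_19 : carD 2 19 = -1 := rfl
theorem carD3_19 : carD 3 19 = -1 := rfl
theorem rev_19 : Fin.rev (19 : Fin 24) = 4 := rfl

set_option maxHeartbeats 8000000 in
theorem D4_check19 (c : F) (v : V28) :
    e28 (XD 19 c *ᵥ v) - (rootM (.inl 0) (.inr 2) c * x28f v * (rootM (.inl 0) (.inr 2) c)ᵀ,
      - v (.inl 3)) ∈ (U28 : Submodule F (M8 × F)) := by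
  rw [mem_U28, e28_apply]
  constructor
  · ext i j
    rcases i with i | i <;> rcases j with j | j <;> fin_cases i <;> fin_cases j <;>
      simp [x28f, mul_rootM_transpose_apply, rootM_mul_apply, XD_mulVec_inl, XD_mulVec_inr,
        sgnD_row19, srcD_row19, corD_row19, carD0_19, carD1_19, carD2_19, carD3_19, rev_19,
        Fin.sum_univ_four] <;> ring
  · simp [qs, x28f, mul_rootM_transpose_apply, rootM_mul_apply, XD_mulVec_inl, XD_mulVec_inr,
        sgnD_row19, srcD_row19, corD_row19, carD0_19, carD1_19, carD2_19, carD3_19, rev_19,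
        Fin.sum_univ_four] <;> ring

theorem sgnD_row20 : sgnD 20 = ![0, 0, 0, 0, 0, 0, 0, -1, 0, 0, 1, 0, 1, 0, 0, 1, 0, 0, -1, -1, 0, 0, -1, 1] := rfl
theorem srcD_row20 : srcD 20 = ![0, 0, 0, 0, 0, 0, 0, 0, 0, 0, 1, 0, 4, 0, 0, 5, 0, 0, 8, 11, 0, 0, 13, 16] := rfl
theorem corD_row20 : corD 20 = ![1, 1, 0, 1] := by funext i; fin_cases i <;> rfl
theorem carD0_20 : carD 0 20 = 1 := rfl
theorem carD1_20 : carD 1 20 = 0 := rfl
theorem carD2_20 : carD 2 20 = -1 := rfl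
theorem carD3_20 : carD 3 20 = 1 := rfl
theorem rev_20 : Fin.rev (20 : Fin 24) = 3 := rfl

set_option maxHeartbeats 8000000 in
theorem D4_check20 (c : F) (v : V28) :
    e28 (XD 20 c *ᵥ v) - (rootM (.inl 0) (.inl 3) c * x28f v * (rootM (.inl 0) (.inl 3) c)ᵀ,
      - v (.inl 3)) ∈ (U28 : Submodule F (M8 × F)) := by
  rw [mem_U28, e28_apply]
  constructor
  · ext i j
    rcases i with i | i <;> rcases j with j | j <;> fin_cases i <;> fin_cases j <;>
      simp [x28f, mul_rootM_transpose_apply, rootM_mul_apply, XD_mulVec_inl, XD_mulVec_inr,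
        sgnD_row20, srcD_row20, corD_row20, carD0_20, carD1_20, carD2_20, carD3_20, rev_20,
        Fin.sum_univ_four] <;> ring
  · simp [qs, x28f, mul_rootM_transpose_apply, rootM_mul_apply, XD_mulVec_inl, XD_mulVec_inr,
        sgnD_row20, srcD_row20, corD_row20, carD0_20, carD1_20, carD2_20, carD3_20, rev_20,
        Fin.sum_univ_four] <;> ring

theorem sgnD_row21 : sgnD 21 = ![0, 0, 0, 0, 0, 0, 0, 0, -1, 0, 0, 1, 0, 1, 0, 0, 1, 0, -1, -1, 0, 0, -1, 1] := rfl
theorem srcD_row21 : srcD 21 = ![0, 0, 0, 0, 0, 0, 0, 0, 0, 0, 0, 1, 0, 4, 0, 0, 5, 0, 7, 10, 0, 0, 12, 15] := rfl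
theorem corD_row21 : corD 21 = ![1, 1, 1, 0] := by funext i; fin_cases i <;> rfl
theorem carD0_21 : carD 0 21 = 1 := rfl
theorem carD1_21 : carD 1 21 = 0 := rfl
theorem carD2_21 : carD 2 21 = 1 := rfl
theorem carD3_21 : carD 3 21 = -1 := rfl
theorem rev_21 : Fin.rev (21 : Fin 24) = 2 := rfl

set_option maxHeartbeats 8000000 in
theorem D4_check21 (c : F) (v : V28) :
    e28 (XD 21 c *ᵥ v) - (rootM (.inl 0) (.inr 3) c * x28f v * (rootM (.inl 0) (.inr 3) c)ᵀ,
      - v (.inl 3)) ∈ (U28 : Submodule F (M8 × F)) := by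
  rw [mem_U28, e28_apply]
  constructor
  · ext i j
    rcases i with i | i <;> rcases j with j | j <;> fin_cases i <;> fin_cases j <;>
      simp [x28f, mul_rootM_transpose_apply, rootM_mul_apply, XD_mulVec_inl, XD_mulVec_inr,
        sgnD_row21, srcD_row21, corD_row21, carD0_21, carD1_21, carD2_21, carD3_21, rev_21,
        Fin.sum_univ_four] <;> ring
  · simp [qs, x28f, mul_rootM_transpose_apply, rootM_mul_apply, XD_mulVec_inl, XD_mulVec_inr,
        sgnD_row21, srcD_row21, corD_row21, carD0_21, carD1_21, carD2_21, carD3_21, rev_21,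
        Fin.sum_univ_four] <;> ring

theorem sgnD_row22 : sgnD 22 = ![0, 0, 0, 0, 0, 0, 0, 0, 0, 1, 0, 0, 1, 1, 0, 0, 0, 1, -1, 0, -1, -1, 0, -1] := rfl
theorem srcD_row22 : srcD 22 = ![0, 0, 0, 0, 0, 0, 0, 0, 0, 0, 0, 0, 2, 3, 0, 0, 0, 5, 6, 0, 10, 11, 0, 14] := rfl
theorem corD_row22 : corD 22 = ![1, 1, 1, 1] := by funext i; fin_cases i <;> rfl
theorem carD0_22 : carD 0 22 = 1 := rfl
theorem carD1_22 : carD 1 22 = -1 := rfl
theorem carD2_22 : carD 2 22 = 1 := rfl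
theorem carD3_22 : carD 3 22 = 1 := rfl
theorem rev_22 : Fin.rev (22 : Fin 24) = 1 := rfl

set_option maxHeartbeats 8000000 in
theorem D4_check22 (c : F) (v : V28) :
    e28 (XD 22 c *ᵥ v) - (rootM (.inl 0) (.inl 2) (-c) * x28f v * (rootM (.inl 0) (.inl 2) (-c))ᵀ,
      - v (.inl 3)) ∈ (U28 : Submodule F (M8 × F)) := by
  rw [mem_U28, e28_apply]
  constructor
  · ext i j
    rcases i with i | i <;> rcases j with j | j <;> fin_cases i <;> fin_cases j <;>
      simp [x28f, mul_rootM_transpose_apply, rootM_mul_apply, XD_mulVec_inl, XD_mulVec_inr,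
        sgnD_row22, srcD_row22, corD_row22, carD0_22, carD1_22, carD2_22, carD3_22, rev_22,
        Fin.sum_univ_four] <;> ring
  · simp [qs, x28f, mul_rootM_transpose_apply, rootM_mul_apply, XD_mulVec_inl, XD_mulVec_inr,
        sgnD_row22, srcD_row22, corD_row22, carD0_22, carD1_22, carD2_22, carD3_22, rev_22,
        Fin.sum_univ_four] <;> ring

theorem sgnD_row23 : sgnD 23 = ![0, 0, 0, 0, 0, 0, 0, 0, 0, 0, 0, 0, 0, 0, 1, -1, -1, 1, 0, -1, 1, 1, -1, 0] := rfl
theorem srcD_row23 : srcD 23 = ![0, 0, 0, 0, 0, 0, 0, 0, 0, 0, 0, 0, 0, 0, 1, 2, 3, 4, 0, 6, 7, 8, 9, 0] := rfl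
theorem corD_row23 : corD 23 = ![1, 2, 1, 1] := by funext i; fin_cases i <;> rfl
theorem carD0_23 : carD 0 23 = 0 := rfl
theorem carD1_23 : carD 1 23 = 1 := rfl
theorem carD2_23 : carD 2 23 = 0 := rfl
theorem carD3_23 : carD 3 23 = 0 := rfl
theorem rev_23 : Fin.rev (23 : Fin 24) = 0 := rfl

set_option maxHeartbeats 8000000 in
theorem D4_check23 (c : F) (v : V28) :
    e28 (XD 23 c *ᵥ v) - (rootM (.inl 0) (.inl 1) (-c) * x28f v * (rootM (.inl 0) (.inl 1) (-c))ᵀ,
      - v (.inl 3)) ∈ (U28 : Submodule F (M8 × F)) := by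
  rw [mem_U28, e28_apply]
  constructor
  · ext i j
    rcases i with i | i <;> rcases j with j | j <;> fin_cases i <;> fin_cases j <;>
      simp [x28f, mul_rootM_transpose_apply, rootM_mul_apply, XD_mulVec_inl, XD_mulVec_inr,
        sgnD_row23, srcD_row23, corD_row23, carD0_23, carD1_23, carD2_23, carD3_23, rev_23,
        Fin.sum_univ_four] <;> ring
  · simp [qs, x28f, mul_rootM_transpose_apply, rootM_mul_apply, XD_mulVec_inl, XD_mulVec_inr,
        sgnD_row23, srcD_row23, corD_row23, carD0_23, carD1_23, carD2_23, carD3_23, rev_23,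
        Fin.sum_univ_four] <;> ring

end Cfsg.Agent.Lib.Helper14
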