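import Mathlib
import Cfsg.Agent.Lib.Helper44.StdForms
import Cfsg.Agent.Lib.Helper44.Eichler
import Cfsg.Agent.Lib.Helper44.Gen
import Cfsg.Agent.Lib.Helper44.Criterion

/-! The commutator subgroup of `O₈⁺(F)` is generated by the root elements (any field). -/

set_option autoImplicit false

namespace Cfsg.Agent.Lib.Helper14

open Matrix Cfsg.Agent.Lib.Helper44 QuadraticMap
open scoped commutatorElement

variable {F : Type*} [Field F]

local notation "I8" => (Fin 4 ⊕ Fin 4)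
local notation "V8" => (Fin 4 ⊕ Fin 4 → F)
local notation "Q8" => plusQF 4 F
local notation "O8" => OQ (plusQF 4 F)

/-- basis vectors -/
def e8 (a : I8) : V8 := Pi.single a 1

theorem polar_single8 (a : I8) (c : F) (x : V8) : polar Q8 (Pi.single a c) x = c * x a.swap := by
  have h : (Pi.single a c : V8) = c • Pi.single a 1 := by
    ext i; by_cases hi : i = a
    · subst hi; simp
    · simp [hi]
  rw [h, polar_smul_left, smul_eq_mul]
  rcases a with a | a
  · rw [plusQF_polar_single_inl]; rfl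
  · rw [plusQF_polar_single_inr]; rfl

theorem polar_e8 (a : I8) (x : V8) : polar Q8 (e8 a) x = x a.swap := by
  rw [e8, polar_single8, one_mul]

theorem Q_single8 (a : I8) (c : F) : Q8 (Pi.single a c) = 0 := by
  rw [plusQF_apply]
  apply Finset.sum_eq_zero
  intro i _
  rcases a with a | a <;> simp

theorem Q_e8 (a : I8) : Q8 (e8 a : V8) = 0 := Q_single8 a 1

/-- Eichler transformations as elements of the orthogonal group. -/
noncomputable def eiO (u w : V8) (hu : Q8 u = 0) (huw : polar Q8 u w = 0) : O8 :=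
  ⟨eichler Q8 u w hu huw, eichler_mem _ _ _ hu huw⟩

theorem eiO_apply (u w : V8) (hu : Q8 u = 0) (huw : polar Q8 u w = 0) (x : V8) :
    (eiO u w hu huw).1 x = eichlerLin Q8 u w x := by
  rw [eichlerLin_apply]; exact eichler_apply _ _ _ hu huw x

theorem O8_ext {g h : O8} (H : ∀ x, g.1 x = h.1 x) : g = h :=
  Subtype.ext (LinearEquiv.ext H)

theorem eiO_add (u w w' : V8) (hu : Q8 u = 0) (h : polar Q8 u w = 0) (h' : polar Q8 u w' = 0)
    (h'' : polar Q8 u (w + w') = 0) : eiO u (w + w') hu h'' = eiO u w hu h * eiO u w' hu h' := by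
  apply O8_ext
  intro x
  show _ = (eiO u w hu h).1 ((eiO u w' hu h').1 x)
  rw [eiO_apply, eiO_apply, eiO_apply, eichlerLin_comp _ hu h h']

theorem eiO_zero (u : V8) (hu : Q8 u = 0) (h : polar Q8 u 0 = 0) : eiO u 0 hu h = 1 := by
  apply O8_ext
  intro x
  rw [eiO_apply, eichlerLin_zero]; rfl

theorem eiO_conj (g : O8) (u w : V8) (hu : Q8 u = 0) (huw : polar Q8 u w = 0)
    (hu' : Q8 (g.1 u) = 0) (huw' : polar Q8 (g.1 u) (g.1 w) = 0) :
    g * eiO u w hu huw * g⁻¹ = eiO (g.1 u) (g.1 w) hu' huw' := by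
  apply O8_ext
  intro x
  show g.1 ((eiO u w hu huw).1 ((g⁻¹).1 x)) = _
  have h1 : g.1 ((g⁻¹).1 x) = x := by
    show (g * g⁻¹).1 x = x
    rw [mul_inv_cancel]; rfl
  have h2 : ∀ y, polar Q8 y ((g⁻¹).1 x) = polar Q8 (g.1 y) x := by
    intro y
    rw [← OQ_polar g.2, h1]
  rw [eiO_apply, eiO_apply, eichlerLin_apply, eichlerLin_apply, h2, h2]
  simp only [map_add, map_sub, map_smul, h1]
  rw [mem_OQ.1 g.2]

/-- The subgroup generated by the root elements. -/
noncomputable def E8 : Subgroup O8 :=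
  Subgroup.closure {g | ∃ (a b : I8) (c : F) (h : polar Q8 (e8 a) (Pi.single b c) = 0),
    g = eiO (e8 a) (Pi.single b c) (Q_e8 a) h}

theorem eiO_e8_mem (a : I8) (w : V8) (hw : polar Q8 (e8 a) w = 0) :
    eiO (e8 a) w (Q_e8 a) hw ∈ (E8 : Subgroup O8) := by
  have key : ∃ h : polar Q8 (e8 a) (∑ b, Pi.single b (w b) : V8) = 0,
      eiO (e8 a) (∑ b, Pi.single b (w b)) (Q_e8 a) h ∈ (E8 : Subgroup O8) := by
    apply Finset.sum_induction _
      (fun w : V8 => ∃ h : polar Q8 (e8 a) w = 0, eiO (e8 a) w (Q_e8 a) h ∈ (E8 : Subgroup O8))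
    · rintro x y ⟨hx, hx'⟩ ⟨hy, hy'⟩
      have hxy : polar Q8 (e8 a) (x + y) = 0 := by rw [polar_add_right, hx, hy, add_zero]
      refine ⟨hxy, ?_⟩
      rw [eiO_add _ _ _ _ hx hy]
      exact mul_mem hx' hy'
    · refine ⟨by simp, ?_⟩
      rw [eiO_zero]
      exact one_mem _
    · intro b _
      have hb : polar Q8 (e8 a) (Pi.single b (w b) : V8) = 0 := by
        rw [polar_e8]
        by_cases h : a.swap = b
        · subst h
          rw [Pi.single_eq_same, ← polar_e8 a w, hw]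
        · rw [Pi.single_eq_of_ne h]
      exact ⟨hb, Subgroup.subset_closure ⟨a, b, w b, hb, rfl⟩⟩
  obtain ⟨h, hm⟩ := key
  have e : (∑ b, Pi.single b (w b) : V8) = w := Finset.univ_sum_single w
  convert hm using 2
  exact e.symm

theorem eiO_e8_apply (a : I8) (w : V8) (hw : polar Q8 (e8 a) w = 0) (x : V8) :
    (eiO (e8 a) w (Q_e8 a) hw).1 x
      = x + polar Q8 w x • e8 a - x a.swap • w - (Q8 w * x a.swap) • e8 a := by
  rw [eiO_apply, eichlerLin_apply, polar_e8]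

local notation "pp" => (Sum.inl 0 : Fin 4 ⊕ Fin 4)
local notation "nn" => (Sum.inr 0 : Fin 4 ⊕ Fin 4)

theorem Q_std (y : F) : Q8 (e8 pp + y • e8 nn : V8) = y := by
  rw [plusQF_apply]
  simp [Fin.sum_univ_four, e8]

theorem trans3 (x : V8) (hx : x pp = 1) :
    ∃ g ∈ (E8 : Subgroup O8), g.1 x = e8 pp + Q8 x • e8 nn := by
  have hw : polar Q8 (e8 nn) (x - e8 pp - x nn • e8 nn : V8) = 0 := by
    rw [polar_e8]
    simp [e8, hx]
  refine ⟨_, eiO_e8_mem nn _ hw, ?_⟩
  have h1 : ∃ y : F, (eiO (e8 nn) _ (Q_e8 nn) hw).1 x = e8 pp + y • e8 nn := by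
    refine ⟨x nn + polar Q8 (x - e8 pp - x nn • e8 nn : V8) x
      - Q8 (x - e8 pp - x nn • e8 nn : V8), ?_⟩
    rw [eiO_e8_apply]
    have : x (Sum.swap nn) = 1 := hx
    rw [this]
    module
  obtain ⟨y, hy⟩ := h1
  have h2 : Q8 ((eiO (e8 nn) _ (Q_e8 nn) hw).1 x) = Q8 x := mem_OQ.1 (eiO (e8 nn) _ (Q_e8 nn) hw).2 x
  rw [hy, Q_std] at h2
  rw [hy, h2]

theorem trans2 (x : V8) (k : I8) (hk : k ≠ pp) (hk' : k ≠ nn) (hx : x k ≠ 0) :
    ∃ g ∈ (E8 : Subgroup O8), (g.1 x) pp = 1 := by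
  have h1 : nn ≠ k.swap := by
    intro h; apply hk; rw [← Sum.swap_swap k, ← h]; rfl
  have h2 : pp ≠ k.swap := by
    intro h; apply hk'; rw [← Sum.swap_swap k, ← h]; rfl
  have hw : polar Q8 (e8 pp) (Pi.single k.swap ((1 - x pp) / x k) : V8) = 0 := by
    rw [polar_e8]
    exact Pi.single_eq_of_ne h1 _
  refine ⟨_, eiO_e8_mem pp _ hw, ?_⟩
  rw [eiO_e8_apply, polar_single8, Q_single8, Sum.swap_swap]
  simp only [Pi.add_apply, Pi.sub_apply, Pi.smul_apply, smul_eq_mul, Pi.single_eq_of_ne h2, e8,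
    Pi.single_eq_same]
  field_simp
  ring

theorem trans1 (x : V8) (hx : x ≠ 0) :
    ∃ g ∈ (E8 : Subgroup O8), ∃ k : I8, k ≠ pp ∧ k ≠ nn ∧ (g.1 x) k ≠ 0 := by
  by_cases h : ∃ k : I8, k ≠ pp ∧ k ≠ nn ∧ x k ≠ 0
  · exact ⟨1, one_mem _, h⟩
  · push Not at h
    have hj : ∃ j, x j ≠ 0 := by
      by_contra hcon
      push Not at hcon
      exact hx (funext hcon)
    obtain ⟨j, hj⟩ := hj
    have hk0 : x (Sum.inl 1) = 0 := h _ (by simp) (by simp)
    by_cases hjp : j = pp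
    · subst hjp
      have hw : polar Q8 (e8 nn) (e8 (Sum.inl 1) : V8) = 0 := by
        rw [polar_e8]; simp [e8]
      refine ⟨_, eiO_e8_mem nn _ hw, Sum.inl 1, by simp, by simp, ?_⟩
      rw [eiO_e8_apply, Q_e8]
      simp only [Pi.add_apply, Pi.sub_apply, Pi.smul_apply, smul_eq_mul, hk0]
      simpa [e8] using hj
    · have hjn : j = nn := by
        by_contra hcon
        exact hj (h j hjp hcon)
      subst hjn
      have hw : polar Q8 (e8 pp) (e8 (Sum.inl 1) : V8) = 0 := by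
        rw [polar_e8]; simp [e8]
      refine ⟨_, eiO_e8_mem pp _ hw, Sum.inl 1, by simp, by simp, ?_⟩
      rw [eiO_e8_apply, Q_e8]
      simp only [Pi.add_apply, Pi.sub_apply, Pi.smul_apply, smul_eq_mul, hk0]
      simpa [e8] using hj

/-- Transitivity of the group generated by the root elements on vectors of given norm. -/
theorem E8_trans (x : V8) (hx : x ≠ 0) :
    ∃ g ∈ (E8 : Subgroup O8), g.1 x = e8 pp + Q8 x • e8 nn := by
  obtain ⟨g1, hg1, k, hk, hk', hx1⟩ := trans1 x hx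
  obtain ⟨g2, hg2, hx2⟩ := trans2 (g1.1 x) k hk hk' hx1
  obtain ⟨g3, hg3, hx3⟩ := trans3 (g2.1 (g1.1 x)) hx2
  refine ⟨g3 * g2 * g1, mul_mem (mul_mem hg3 hg2) hg1, ?_⟩
  show g3.1 (g2.1 (g1.1 x)) = _
  rw [hx3, mem_OQ.1 g2.2, mem_OQ.1 g1.2]

theorem eiO_mem (u w : V8) (hu : Q8 u = 0) (huw : polar Q8 u w = 0) :
    eiO u w hu huw ∈ (E8 : Subgroup O8) := by
  by_cases h0 : u = 0
  · subst h0
    have : eiO (0 : V8) w hu huw = 1 := by
      apply O8_ext
      intro x
      rw [eiO_apply, eichlerLin_apply]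
      simp
    rw [this]; exact one_mem _
  · obtain ⟨g, hg, hgu⟩ := E8_trans u h0
    rw [hu, zero_smul, add_zero] at hgu
    have hu' : Q8 (g.1 u) = 0 := by rw [mem_OQ.1 g.2, hu]
    have huw' : polar Q8 (g.1 u) (g.1 w) = 0 := by rw [OQ_polar g.2, huw]
    have h1 := eiO_conj g u w hu huw hu' huw'
    have h2 : ∀ (u' : V8) (_ : u' = e8 pp) (a : Q8 u' = 0) (b : polar Q8 u' (g.1 w) = 0),
        eiO u' (g.1 w) a b ∈ (E8 : Subgroup O8) := by
      rintro _ rfl a b
      exact eiO_e8_mem _ _ _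
    have h3 : eiO u w hu huw = g⁻¹ * eiO (g.1 u) (g.1 w) hu' huw' * g := by
      rw [← h1]; group
    rw [h3]
    exact mul_mem (mul_mem (inv_mem hg) (h2 _ hgu _ _)) hg

theorem E8_normal : (E8 : Subgroup O8).Normal := by
  constructor
  intro n hn g
  induction hn using Subgroup.closure_induction with
  | mem x hx =>
    obtain ⟨a, b, c, h, rfl⟩ := hx
    rw [eiO_conj g _ _ _ _ (by rw [mem_OQ.1 g.2, Q_e8]) (by rw [OQ_polar g.2, h])]
    exact eiO_mem _ _ _ _
  | one => simp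
  | mul x y _ _ hx hy =>
    have : g * (x * y) * g⁻¹ = (g * x * g⁻¹) * (g * y * g⁻¹) := by group
    rw [this]; exact mul_mem hx hy
  | inv x _ hx =>
    have : g * x⁻¹ * g⁻¹ = (g * x * g⁻¹)⁻¹ := by group
    rw [this]; exact inv_mem hx

theorem finrank_V8 : Module.finrank F V8 = 8 := by simp

theorem comm_reflO_mem (v w : V8) (hw : Q8 w ≠ 0) :
    ⁅reflO Q8 v, reflO Q8 w⁆ ∈ (E8 : Subgroup O8) := by
  have hN := E8_normal (F := F)
  have hw0 : w ≠ 0 := by
    rintro rfl; exact hw (by simp)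
  have hQ' : Q8 ((reflO Q8 v).1 w) = Q8 w := mem_OQ.1 (reflO Q8 v).2 w
  have hw0' : (reflO Q8 v).1 w ≠ 0 := by
    intro h; rw [h] at hQ'; exact hw (by rw [← hQ']; simp)
  obtain ⟨g1, hg1, h1⟩ := E8_trans w hw0
  obtain ⟨g2, hg2, h2⟩ := E8_trans _ hw0'
  rw [hQ', ← h1] at h2
  -- `h = g2⁻¹ g1` maps `w` to `r_v w`
  have h3 : (g2⁻¹ * g1).1 w = (reflO Q8 v).1 w := by
    show (g2⁻¹).1 (g1.1 w) = _
    rw [← h2]
    show (g2⁻¹ * g2).1 _ = _
    rw [inv_mul_cancel]; rfl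
  have hh : g2⁻¹ * g1 ∈ (E8 : Subgroup O8) := mul_mem (inv_mem hg2) hg1
  have c1 : reflO Q8 v * reflO Q8 w * (reflO Q8 v)⁻¹ = reflO Q8 ((reflO Q8 v).1 w) :=
    Subtype.ext (conj_refl (reflO Q8 v).2 w)
  have c2 : (g2⁻¹ * g1) * reflO Q8 w * (g2⁻¹ * g1)⁻¹ = reflO Q8 ((g2⁻¹ * g1).1 w) :=
    Subtype.ext (conj_refl (g2⁻¹ * g1).2 w)
  rw [commutatorElement_def, c1, ← h3, ← c2]
  have : (g2⁻¹ * g1) * reflO Q8 w * (g2⁻¹ * g1)⁻¹ * (reflO Q8 w)⁻¹
      = (g2⁻¹ * g1) * (reflO Q8 w * (g2⁻¹ * g1)⁻¹ * (reflO Q8 w)⁻¹) := by group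
  rw [this]
  exact mul_mem hh (hN.conj_mem _ (inv_mem hh) _)

theorem commutator_O8_le : commutator O8 ≤ (E8 : Subgroup O8) := by
  have hN := E8_normal (F := F)
  -- the quotient is commutative
  let π := QuotientGroup.mk' (E8 : Subgroup O8)
  let S : Set (O8 ⧸ (E8 : Subgroup O8)) := {a | ∃ v : V8, Q8 v ≠ 0 ∧ a = π (reflO Q8 v)}
  have hgen : Subgroup.closure S = ⊤ := by
    rw [eq_top_iff]
    intro a _
    obtain ⟨g, rfl⟩ := QuotientGroup.mk'_surjective _ a
    obtain ⟨l, hl, hg⟩ := exists_list_refl (plusQF_nondeg (m := 4) (F := F))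
      (Or.inr (by rw [finrank_V8]; norm_num)) g.2
    have hg' : g = (l.map (reflO Q8)).prod := Subtype.ext (by rw [prod_reflO_coe]; exact hg)
    rw [hg', map_list_prod]
    apply Subgroup.list_prod_mem
    intro x hx
    rw [List.mem_map] at hx
    obtain ⟨y, hy, rfl⟩ := hx
    rw [List.mem_map] at hy
    obtain ⟨v, hv, rfl⟩ := hy
    exact Subgroup.subset_closure ⟨v, hl v hv, rfl⟩
  have hS : ∀ a ∈ S, ∀ b ∈ S, a * b = b * a := by
    rintro _ ⟨v, _, rfl⟩ _ ⟨w, hw, rfl⟩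
    rw [← commutatorElement_eq_one_iff_mul_comm, ← map_commutatorElement]
    exact (QuotientGroup.eq_one_iff _).2 (comm_reflO_mem v w hw)
  have hcen : ∀ a ∈ S, a ∈ Subgroup.center (O8 ⧸ (E8 : Subgroup O8)) := by
    intro a ha
    have h1 : Subgroup.closure S ≤ Subgroup.centralizer {a} := by
      rw [Subgroup.closure_le]
      intro b hb
      rw [SetLike.mem_coe, Subgroup.mem_centralizer_singleton_iff]
      exact hS b hb a ha
    rw [Subgroup.mem_center_iff]
    intro b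
    have := h1 (hgen ▸ Subgroup.mem_top b)
    rw [Subgroup.mem_centralizer_singleton_iff] at this
    exact this
  have hcen' : Subgroup.center (O8 ⧸ (E8 : Subgroup O8)) = ⊤ := by
    rw [eq_top_iff, ← hgen, Subgroup.closure_le]
    exact hcen
  rw [commutator_def, Subgroup.commutator_le]
  intro x _ y _
  rw [← QuotientGroup.eq_one_iff, ← QuotientGroup.mk'_apply, map_commutatorElement,
    commutatorElement_eq_one_iff_mul_comm]
  have : π x ∈ Subgroup.center (O8 ⧸ (E8 : Subgroup O8)) := hcen' ▸ Subgroup.mem_top _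
  exact ((Subgroup.mem_center_iff.1 this) (π y)).symm

/-- the commutator formula for Eichler transformations -/
theorem eiO_comm (p q k k' : V8) (c : F) (hp : Q8 p = 0) (hq : Q8 q = 0) (hk : Q8 k = 0)
    (hk' : Q8 k' = 0) (hpq : polar Q8 p q = 0) (hpk : polar Q8 p k = 0) (hpk' : polar Q8 p k' = 0)
    (hqk : polar Q8 q k = 0) (hqk' : polar Q8 q k' = 0) (hkk' : polar Q8 k k' = 1)
    (h1 : polar Q8 p (c • k) = 0) (h2 : polar Q8 p (-c • q) = 0) :
    ⁅eiO p (c • k) hp h1, eiO q k' hq hqk'⁆ = eiO p (-c • q) hp h2 := by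
  have hinv1 : (eiO p (c • k) hp h1)⁻¹ = eiO p (-(c • k)) hp (by rw [polar_neg_right, h1, neg_zero]) := by
    rw [inv_eq_iff_mul_eq_one, ← eiO_add _ _ _ _ _ _ (by simp)]
    have : ∀ (w : V8) (_ : w = 0) (h : polar Q8 p w = 0), eiO p w hp h = 1 := by
      rintro _ rfl h; exact eiO_zero _ _ _
    exact this _ (by simp) _
  have hinv2 : (eiO q k' hq hqk')⁻¹ = eiO q (-k') hq (by rw [polar_neg_right, hqk', neg_zero]) := by
    rw [inv_eq_iff_mul_eq_one, ← eiO_add _ _ _ _ _ _ (by simp)]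
    have : ∀ (w : V8) (_ : w = 0) (h : polar Q8 q w = 0), eiO q w hq h = 1 := by
      rintro _ rfl h; exact eiO_zero _ _ _
    exact this _ (by simp) _
  rw [commutatorElement_def, hinv1, hinv2]
  apply O8_ext
  intro x
  show (eiO p (c • k) hp h1).1 ((eiO q k' hq hqk').1 ((eiO p (-(c • k)) hp _).1
    ((eiO q (-k') hq _).1 x))) = _
  have hpp : polar Q8 p p = 0 := by rw [polar_self, hp]; simp
  have hqq : polar Q8 q q = 0 := by rw [polar_self, hq]; simp
  have hkk : polar Q8 k k = 0 := by rw [polar_self, hk]; simp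
  have hkk2 : polar Q8 k' k' = 0 := by rw [polar_self, hk']; simp
  have hqp : polar Q8 q p = 0 := by rw [polar_comm]; exact hpq
  have hkp : polar Q8 k p = 0 := by rw [polar_comm]; exact hpk
  have hk'p : polar Q8 k' p = 0 := by rw [polar_comm]; exact hpk'
  have hkq : polar Q8 k q = 0 := by rw [polar_comm]; exact hqk
  have hk'q : polar Q8 k' q = 0 := by rw [polar_comm]; exact hqk'
  have hk'k : polar Q8 k' k = 1 := by rw [polar_comm]; exact hkk'
  simp only [eiO_apply, eichlerLin_apply, polar_add_right, polar_sub_right, polar_smul_right,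
    polar_smul_left, polar_neg_left, polar_neg_right, QuadraticMap.map_smul, QuadraticMap.map_neg,
    hp, hq, hk, hk', hpq, hpk, hpk', hqk, hqk', hkk', hpp, hqq, hkk, hkk2, hqp, hkp, hk'p, hkq,
    hk'q, hk'k, smul_eq_mul, mul_zero, zero_mul, add_zero, sub_zero, zero_smul, mul_one, neg_zero]
  module

theorem exists_third : ∀ a b : I8, ∃ k : I8, k ≠ a ∧ k ≠ a.swap ∧ k ≠ b ∧ k ≠ b.swap := by
  decide

theorem polar_e8_e8 (a b : I8) : polar Q8 (e8 a) (e8 b : V8) = if a.swap = b then 1 else 0 := by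
  rw [polar_e8, e8, Pi.single_apply]

theorem single_eq_smul (b : I8) (c : F) : (Pi.single b c : V8) = c • e8 b := by
  ext i; by_cases hi : i = b
  · subst hi; simp [e8]
  · simp [e8, hi]

theorem E8_le_commutator : (E8 : Subgroup O8) ≤ commutator O8 := by
  unfold E8
  rw [Subgroup.closure_le]
  rintro _ ⟨a, b, c, h, rfl⟩
  rw [SetLike.mem_coe]
  by_cases hb : b = a.swap
  · -- then `c = 0`
    have hc : c = 0 := by
      rw [polar_e8, hb, Pi.single_eq_same] at h; exact h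
    have : ∀ (w : V8) (_ : w = 0) (h : polar Q8 (e8 a) w = 0), eiO (e8 a) w (Q_e8 a) h = 1 := by
      rintro _ rfl h; exact eiO_zero _ _ _
    rw [this _ (by rw [hc]; simp) _]
    exact one_mem _
  · obtain ⟨k, hk1, hk2, hk3, hk4⟩ := exists_third a b
    have sw : ∀ {x y : I8}, x ≠ y.swap → x.swap ≠ y := by
      intro x y hxy h; apply hxy; rw [← h, Sum.swap_swap]
    have e1 : polar Q8 (e8 a) (e8 b : V8) = 0 := by
      rw [polar_e8_e8, if_neg (fun h => hb h.symm)]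
    have e2 : polar Q8 (e8 a) (e8 k : V8) = 0 := by
      rw [polar_e8_e8, if_neg (fun h => hk2 h.symm)]
    have e3 : polar Q8 (e8 a) (e8 k.swap : V8) = 0 := by
      rw [polar_e8_e8, if_neg (fun h => hk1 (Sum.swap_leftInverse.injective h).symm)]
    have e4 : polar Q8 (e8 b) (e8 k : V8) = 0 := by
      rw [polar_e8_e8, if_neg (fun h => hk4 h.symm)]
    have e5 : polar Q8 (e8 b) (e8 k.swap : V8) = 0 := by
      rw [polar_e8_e8, if_neg (fun h => hk3 (Sum.swap_leftInverse.injective h).symm)]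
    have e6 : polar Q8 (e8 k) (e8 k.swap : V8) = 1 := by
      rw [polar_e8_e8, if_pos rfl]
    have key := eiO_comm (e8 a) (e8 b) (e8 k) (e8 k.swap) (-c) (Q_e8 a) (Q_e8 b) (Q_e8 k)
      (Q_e8 k.swap) e1 e2 e3 e4 e5 e6 (by rw [polar_smul_right, e2, smul_zero])
      (by rw [polar_smul_right, e1, smul_zero])
    have e7 : ∀ (w : V8) (_ : w = Pi.single b c) (h' : polar Q8 (e8 a) w = 0),
        eiO (e8 a) w (Q_e8 a) h' = eiO (e8 a) (Pi.single b c) (Q_e8 a) h := by
      rintro _ rfl _; rfl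
    rw [e7 (- -c • e8 b) (by rw [neg_neg, single_eq_smul]) _] at key
    rw [← key]
    exact Subgroup.commutator_mem_commutator (Subgroup.mem_top _) (Subgroup.mem_top _)

theorem commutator_O8_eq : commutator O8 = (E8 : Subgroup O8) :=
  le_antisymm commutator_O8_le E8_le_commutator

end Cfsg.Agent.Lib.Helper14
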