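import Mathlib
import Cfsg.Agent.Lib.Helper14.B2Adj

/-! `GSp₄(F) → O₅(F)` for an arbitrary field. -/

set_option autoImplicit false

namespace Cfsg.Agent.Lib.Helper14

open Matrix Cfsg.Agent.Lib.Helper44

section congActS

variable (F : Type*) {R : Type*} [Field F] [Ring R] [Algebra F R]

/-- The action `x ↦ μ⁻¹ g x σ(g)`. -/
def congActS (σ : R → R) (hσ1 : σ 1 = 1) (hσ : ∀ a b, σ (a * b) = σ b * σ a) :
    Rˣ × Fˣ →* (R ≃ₗ[F] R) where
  toFun p :=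
    { toFun := fun x => ((p.2⁻¹ : Fˣ) : F) • ((p.1 : R) * x * σ (p.1 : R))
      map_add' := fun x y => by rw [mul_add, add_mul, smul_add]
      map_smul' := fun c x => by
        rw [mul_smul_comm, smul_mul_assoc, smul_comm, RingHom.id_apply]
      invFun := fun x => (p.2 : F) • (((p.1⁻¹ : Rˣ) : R) * x * σ ((p.1⁻¹ : Rˣ) : R))
      left_inv := fun x => by
        show (p.2 : F) • (((p.1⁻¹ : Rˣ) : R) * (((p.2⁻¹ : Fˣ) : F) • ((p.1 : R) * x * σ (p.1 : R))) *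
          σ ((p.1⁻¹ : Rˣ) : R)) = x
        rw [mul_smul_comm, smul_mul_assoc, smul_smul, Units.mul_inv, one_smul,
          mul_assoc, mul_assoc, mul_assoc, ← hσ, Units.inv_mul, hσ1, mul_one, ← mul_assoc,
          Units.inv_mul, one_mul]
      right_inv := fun x => by
        show ((p.2⁻¹ : Fˣ) : F) • ((p.1 : R) * ((p.2 : F) • (((p.1⁻¹ : Rˣ) : R) * x *
          σ ((p.1⁻¹ : Rˣ) : R))) * σ (p.1 : R)) = x
        rw [mul_smul_comm, smul_mul_assoc, smul_smul, Units.inv_mul, one_smul,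
          mul_assoc, mul_assoc, mul_assoc, ← hσ, Units.mul_inv, hσ1, mul_one, ← mul_assoc,
          Units.mul_inv, one_mul] }
  map_one' := by
    ext x
    simp [hσ1]
  map_mul' a b := by
    ext x
    simp [hσ, mul_assoc, smul_smul, mul_comm]

theorem congActS_apply (σ : R → R) (hσ1 : σ 1 = 1) (hσ : ∀ a b, σ (a * b) = σ b * σ a)
    (p : Rˣ × Fˣ) (x : R) :
    congActS F σ hσ1 hσ p x = ((p.2⁻¹ : Fˣ) : F) • ((p.1 : R) * x * σ (p.1 : R)) := rfl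

end congActS

variable {F : Type*} [Field F]

local notation "W" => Matrix (Fin 4) (Fin 4) F
local notation "V5" => (Unit ⊕ (Fin 2 ⊕ Fin 2) → F)

variable (F) in
/-- The group of symplectic similitudes. -/
def GSp : Subgroup (Wˣ × Fˣ) where
  carrier := {p | (p.1 : W) * J4 * (p.1 : W)ᵀ = (p.2 : F) • J4}
  mul_mem' := by
    intro a b ha hb
    simp only [Set.mem_ofPred_eq] at ha hb ⊢
    simp only [Prod.fst_mul, Prod.snd_mul, Units.val_mul, Matrix.transpose_mul]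
    calc (a.1 : W) * (b.1 : W) * J4 * ((b.1 : W)ᵀ * (a.1 : W)ᵀ)
        = (a.1 : W) * ((b.1 : W) * J4 * (b.1 : W)ᵀ) * (a.1 : W)ᵀ := by simp only [mul_assoc]
      _ = _ := by
        rw [hb, Matrix.mul_smul, Matrix.smul_mul, ha, smul_smul, mul_comm]
  one_mem' := by simp
  inv_mem' := by
    intro a ha
    simp only [Set.mem_ofPred_eq] at ha ⊢
    simp only [Prod.fst_inv, Prod.snd_inv]
    have h1 : (J4 : W) = ((a.2⁻¹ : Fˣ) : F) • ((a.1 : W) * J4 * (a.1 : W)ᵀ) := by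
      rw [ha, smul_smul, Units.inv_mul, one_smul]
    have h2 : ((a.1⁻¹ : Wˣ) : W)ᵀ = (((a.1 : W)ᵀ))⁻¹ := by
      rw [Matrix.coe_units_inv, Matrix.transpose_nonsing_inv]
    have hu : IsUnit (a.1 : W)ᵀ.det := by
      rw [Matrix.det_transpose]
      exact (Matrix.isUnit_iff_isUnit_det _).mp a.1.isUnit
    conv_lhs => rw [h1]
    rw [Matrix.mul_smul, Matrix.smul_mul, h2]
    congr 1
    rw [← mul_assoc, ← mul_assoc, Units.inv_mul, one_mul, mul_assoc,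
      Matrix.mul_nonsing_inv _ hu, mul_one]

theorem mem_GSp (p : Wˣ × Fˣ) : p ∈ GSp F ↔ (p.1 : W) * J4 * (p.1 : W)ᵀ = (p.2 : F) • J4 := Iff.rfl

theorem pf4_smul (c : F) (M : W) : pf4 (c • M) = c ^ 2 * pf4 M := by
  simp [pf4]; ring

theorem pf4_vJ : pf4 (e6 (vJ : Fin 3 ⊕ Fin 3 → F)) = -1 := by
  rw [pf4_e6, plusQF_apply]
  simp [Fin.sum_univ_three, vJ]

theorem det_of_simil (M : W) (μ : F) (h : M * J4 * Mᵀ = μ • J4) : M.det = μ ^ 2 := by
  have h1 := congrArg pf4 h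
  rw [J4_eq, pf4_cong, pf4_smul, pf4_vJ] at h1
  linear_combination -h1

theorem pf4_add_smul_J (v : Fin 3 ⊕ Fin 3 → F) (c : F) :
    pf4 (e6 (v + c • vJ)) = pf4 (e6 v) - c ^ 2 + c * (v (.inl 1) - v (.inr 1)) := by
  rw [pf4_e6, pf4_e6, plusQF_apply, plusQF_apply]
  simp [Fin.sum_univ_three, vJ]
  ring

theorem simil_stable (M : W) (μ : F) (hμ : μ ≠ 0) (h : M * J4 * Mᵀ = μ • J4)
    (v v' : Fin 3 ⊕ Fin 3 → F) (hv : e6 v' = M * e6 v * Mᵀ) :
    v' (.inl 1) - v' (.inr 1) = μ * (v (.inl 1) - v (.inr 1)) := by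
  have h1 : e6 (v' + μ • vJ) = M * e6 (v + (1 : F) • vJ) * Mᵀ := by
    rw [map_add, map_add, mul_add, add_mul, map_smul, map_smul, one_smul, ← J4_eq, h, hv]
  have h2 := congrArg pf4 h1
  have h3 := congrArg pf4 hv
  rw [pf4_cong, det_of_simil M μ h] at h2 h3
  rw [pf4_add_smul_J, pf4_add_smul_J, h3] at h2
  apply mul_left_cancel₀ hμ
  linear_combination h2

theorem e5_simil_range (M : W) (μ : F) (hμ : μ ≠ 0) (h : M * J4 * Mᵀ = μ • J4) (c : F) (u : V5) :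
    ∃ u', e5 u' = c • (M * e5 u * Mᵀ) := by
  obtain ⟨v', hv'⟩ := e6_cong_range M (u ∘ c5idx)
  have h1 := simil_stable M μ hμ h _ _ hv'
  rw [e5_apply, ← hv', ← map_smul]
  apply e5_range
  have : (u ∘ c5idx) (.inl 1) - (u ∘ c5idx) (.inr 1) = 0 := by simp [c5idx]
  rw [this, mul_zero] at h1
  simp only [Pi.smul_apply, smul_eq_mul]
  linear_combination c * h1

/-- The homomorphism `GSp₄ → O₅`. -/
noncomputable def rhoG : GSp F →* OQ (oddQF 2 F) :=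
  liftOQ (oddQF 2 F) e5 e5_injective
    ((congActS F (R := W) Matrix.transpose Matrix.transpose_one Matrix.transpose_mul).comp
      (GSp F).subtype)
    (fun a v => e5_simil_range _ _ a.1.2.ne_zero a.2 _ v) pf4 pf4_e5 (fun a v => by
      show pf4 (((a.1.2⁻¹ : Fˣ) : F) • ((a.1.1 : W) * e5 v * (a.1.1 : W)ᵀ)) = _
      rw [e5_apply, pf4_smul, pf4_cong, det_of_simil _ _ a.2, ← mul_assoc, ← mul_pow,
        Units.inv_mul, one_pow, one_mul])

theorem rhoG_spec (a : GSp F) (v : V5) :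
    e5 ((rhoG a : V5 ≃ₗ[F] V5) v) = ((a.1.2⁻¹ : Fˣ) : F) • ((a.1.1 : W) * e5 v * (a.1.1 : W)ᵀ) :=
  liftOQ_spec _ _ _ _ _ _ _ _ a v

theorem rhoG_apply_eq (a : GSp F) (v v' : V5)
    (h : (a.1.2 : F) • e5 v' = (a.1.1 : W) * e5 v * (a.1.1 : W)ᵀ) :
    (rhoG a : V5 ≃ₗ[F] V5) v = v' := by
  apply e5_injective
  rw [rhoG_spec, ← h, smul_smul, Units.inv_mul, one_smul]

/-- Constructor for elements of `GSp₄`. -/
noncomputable def mkG (M : W) (μ : F) (hμ : μ ≠ 0) (h : M * J4 * Mᵀ = μ • J4) : GSp F :=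
  ⟨(((Matrix.isUnit_iff_isUnit_det M).mpr (by
      rw [det_of_simil M μ h]; exact (isUnit_iff_ne_zero.mpr hμ).pow 2)).unit, Units.mk0 μ hμ), by
    rw [mem_GSp]; exact h⟩

theorem mkG_fst (M : W) (μ : F) (hμ : μ ≠ 0) (h : M * J4 * Mᵀ = μ • J4) :
    ((mkG M μ hμ h).1.1 : W) = M := rfl

theorem mkG_snd (M : W) (μ : F) (hμ : μ ≠ 0) (h : M * J4 * Mᵀ = μ • J4) :
    ((mkG M μ hμ h).1.2 : F) = μ := rfl

theorem rhoG_mkG (M : W) (μ : F) (hμ : μ ≠ 0) (h : M * J4 * Mᵀ = μ • J4) (v v' : V5)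
    (hv : μ • e5 v' = M * e5 v * Mᵀ) : (rhoG (mkG M μ hμ h) : V5 ≃ₗ[F] V5) v = v' :=
  rhoG_apply_eq _ _ _ hv

end Cfsg.Agent.Lib.Helper14
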