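import Mathlib

set_option autoImplicit false

namespace Cfsg.Agent.Lib.Helper14

open Module TensorProduct LinearMap

variable {F U W : Type*} [Field F] [AddCommGroup U] [Module F U] [FiniteDimensional F U]
  [AddCommGroup W] [Module F W] [FiniteDimensional F W]

/-- The tensor product of two nondegenerate bilinear forms is nondegenerate. -/
theorem tmul_nondegenerate (B₁ : LinearMap.BilinForm F U) (B₂ : LinearMap.BilinForm F W)
    (h₁ : B₁.Nondegenerate) (h₂ : B₂.Nondegenerate) : (B₁.tmul B₂).Nondegenerate := by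
  classical
  let b₁ := Module.finBasis F U
  let b₂ := Module.finBasis F W
  refine (LinearMap.BilinForm.nondegenerate_iff_det_ne_zero (b₁.tensorProduct b₂)).mpr ?_
  have hM : LinearMap.BilinForm.toMatrix (b₁.tensorProduct b₂) (B₁.tmul B₂)
      = Matrix.kroneckerMap (· * ·) (LinearMap.BilinForm.toMatrix b₁ B₁)
        (LinearMap.BilinForm.toMatrix b₂ B₂) := by
    ext ⟨i, j⟩ ⟨k, l⟩
    simp [LinearMap.BilinForm.toMatrix_apply, Basis.tensorProduct_apply, mul_comm]
  rw [hM, Matrix.det_kronecker]
  have d₁ := (LinearMap.BilinForm.nondegenerate_iff_det_ne_zero b₁).mp h₁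
  have d₂ := (LinearMap.BilinForm.nondegenerate_iff_det_ne_zero b₂).mp h₂
  exact mul_ne_zero (pow_ne_zero _ d₁) (pow_ne_zero _ d₂)

/-- A nondegenerate alternating form on a space of dimension `≥ 2 j` has a totally isotropic
subspace of dimension `j`. -/
theorem exists_isotropic_of_alt (B : LinearMap.BilinForm F U) (h : B.Nondegenerate)
    (hA : B.IsAlt) (j : ℕ) (hj : 2 * j ≤ finrank F U) :
    ∃ X : Submodule F U, finrank F X = j ∧ ∀ x ∈ X, ∀ y ∈ X, B x y = 0 := by
  induction j with
  | zero => exact ⟨⊥, by simp, by simp⟩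
  | succ j ih =>
    obtain ⟨X, hXd, hX⟩ := ih (by omega)
    have hle : X ≤ B.orthogonal X := by
      intro x hx y hy
      exact hX y hy x hx
    have hdim : finrank F (B.orthogonal X) = finrank F U - finrank F X :=
      LinearMap.BilinForm.finrank_orthogonal h X
    have hlt : X < B.orthogonal X := by
      refine lt_of_le_of_ne hle ?_
      intro heq
      rw [← heq] at hdim
      omega
    obtain ⟨v, hv, hvX⟩ := SetLike.exists_of_lt hlt
    refine ⟨X ⊔ Submodule.span F {v}, ?_, ?_⟩
    · have hdisj : Disjoint X (Submodule.span F {v}) := by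
        rw [Submodule.disjoint_span_singleton']
        · exact hvX
        · rintro rfl
          exact hvX X.zero_mem
      have h0 : v ≠ 0 := by
        rintro rfl
        exact hvX X.zero_mem
      have := Submodule.finrank_sup_add_finrank_inf_eq X (Submodule.span F {v})
      rw [hdisj.eq_bot, finrank_bot, finrank_span_singleton h0, hXd] at this
      omega
    · have hvx : ∀ x ∈ X, B x v = 0 := fun x hx => hv x hx
      have hxv : ∀ x ∈ X, B v x = 0 := fun x hx => hA.isRefl _ _ (hvx x hx)
      intro x hx y hy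
      rw [Submodule.mem_sup] at hx hy
      obtain ⟨x₁, hx₁, x₂, hx₂, rfl⟩ := hx
      obtain ⟨y₁, hy₁, y₂, hy₂, rfl⟩ := hy
      rw [Submodule.mem_span_singleton] at hx₂ hy₂
      obtain ⟨a, rfl⟩ := hx₂
      obtain ⟨b, rfl⟩ := hy₂
      simp [hX x₁ hx₁ y₁ hy₁, hvx x₁ hx₁, hxv y₁ hy₁, hA v]

/-- If `L` is totally isotropic for `B₁`, then the image of `L ⊗ W` is totally isotropic for
`B₁ ⊗ B₂`, of dimension `dim L * dim W`. -/
theorem exists_isotropic_tmul_left (B₁ : LinearMap.BilinForm F U) (B₂ : LinearMap.BilinForm F W)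
    (L : Submodule F U) (hL : ∀ x ∈ L, ∀ y ∈ L, B₁ x y = 0) :
    ∃ X : Submodule F (U ⊗[F] W), finrank F X = finrank F L * finrank F W ∧
      ∀ x ∈ X, ∀ y ∈ X, (B₁.tmul B₂) x y = 0 := by
  refine ⟨LinearMap.range (LinearMap.rTensor W L.subtype), ?_, ?_⟩
  · rw [LinearMap.finrank_range_of_inj, Module.finrank_tensorProduct]
    exact Module.Flat.rTensor_preserves_injective_linearMap _ L.injective_subtype
  · rintro _ ⟨x, rfl⟩ _ ⟨y, rfl⟩
    induction x using TensorProduct.induction_on with
    | zero => simp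
    | add x₁ x₂ h₁ h₂ => simp only [map_add, LinearMap.add_apply, h₁, h₂, add_zero]
    | tmul a b =>
      induction y using TensorProduct.induction_on with
      | zero => simp
      | add y₁ y₂ h₁ h₂ => simp only [map_add, h₁, h₂, add_zero]
      | tmul c d =>
        simp [hL a a.2 c c.2]

/-- If `L` is totally isotropic for `B₂`, then the image of `U ⊗ L` is totally isotropic for
`B₁ ⊗ B₂`, of dimension `dim U * dim L`. -/
theorem exists_isotropic_tmul_right (B₁ : LinearMap.BilinForm F U) (B₂ : LinearMap.BilinForm F W)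
    (L : Submodule F W) (hL : ∀ x ∈ L, ∀ y ∈ L, B₂ x y = 0) :
    ∃ X : Submodule F (U ⊗[F] W), finrank F X = finrank F U * finrank F L ∧
      ∀ x ∈ X, ∀ y ∈ X, (B₁.tmul B₂) x y = 0 := by
  refine ⟨LinearMap.range (LinearMap.lTensor U L.subtype), ?_, ?_⟩
  · rw [LinearMap.finrank_range_of_inj, Module.finrank_tensorProduct]
    exact Module.Flat.lTensor_preserves_injective_linearMap _ L.injective_subtype
  · rintro _ ⟨x, rfl⟩ _ ⟨y, rfl⟩
    induction x using TensorProduct.induction_on with
    | zero => simp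
    | add x₁ x₂ h₁ h₂ => simp only [map_add, LinearMap.add_apply, h₁, h₂, add_zero]
    | tmul a b =>
      induction y using TensorProduct.induction_on with
      | zero => simp
      | add y₁ y₂ h₁ h₂ => simp only [map_add, h₁, h₂, add_zero]
      | tmul c d =>
        simp [hL b b.2 d d.2]

end Cfsg.Agent.Lib.Helper14
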