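import Mathlib
import Cfsg.Agent.Lib.Helper14.Omega6Plus
import Cfsg.Agent.Lib.Helper14.PSL2Center
import Cfsg.Agent.Lib.Helper14.PSL2Embed

/-! `SL₂(q²) → Ω₄⁻(q)`. -/

set_option autoImplicit false

namespace Cfsg.Agent.Lib.Helper14

open Cfsg.Agent.Lib.Helper44 Matrix QuadraticAlgebra

variable {F : Type*} [Field F] (a b : F)

local notation "E" => QuadraticAlgebra F (-b) a
local notation "W" => Matrix (Fin 2) (Fin 2) (QuadraticAlgebra F (-b) a)

/-- Hermitian matrices. -/
def e4m : ((Fin 1 ⊕ Fin 1) ⊕ Fin 2 → F) →ₗ[F] W where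
  toFun v := !![algebraMap F E (v (.inl (.inl 0))), (⟨v (.inr 0), v (.inr 1)⟩ : E);
    star (⟨v (.inr 0), v (.inr 1)⟩ : E), - algebraMap F E (v (.inl (.inr 0)))]
  map_add' x y := by
    ext i j <;> fin_cases i <;> fin_cases j <;> simp
    all_goals ring
  map_smul' c x := by
    ext i j <;> fin_cases i <;> fin_cases j <;> simp <;> ring

theorem e4m_apply (v : (Fin 1 ⊕ Fin 1) ⊕ Fin 2 → F) :
    e4m a b v = !![algebraMap F E (v (.inl (.inl 0))), (⟨v (.inr 0), v (.inr 1)⟩ : E);
    star (⟨v (.inr 0), v (.inr 1)⟩ : E), - algebraMap F E (v (.inl (.inr 0)))] := rfl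

theorem e4m_injective : Function.Injective (e4m a b) := by
  intro x y hxy
  rw [e4m_apply, e4m_apply] at hxy
  have h00 := congrArg QuadraticAlgebra.re (congrFun (congrFun hxy 0) 0)
  have h01 := congrArg QuadraticAlgebra.re (congrFun (congrFun hxy 0) 1)
  have h01' := congrArg QuadraticAlgebra.im (congrFun (congrFun hxy 0) 1)
  have h11 := congrArg QuadraticAlgebra.re (congrFun (congrFun hxy 1) 1)
  simp at h00 h01 h01' h11
  ext i
  rcases i with (i | i) | i <;> fin_cases i
  · exact h00
  · exact h11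
  · exact h01
  · exact h01'

theorem star_fixed (hD : a ^ 2 - 4 * b ≠ 0) (z : E) (hz : star z = z) :
    z = algebraMap F E z.re := by
  have h1 := congrArg QuadraticAlgebra.re hz
  have h2 := congrArg QuadraticAlgebra.im hz
  simp at h1 h2
  have him : z.im = 0 := by
    by_contra hne
    have ha : a = 0 := by
      rcases h1 with h | h
      · exact h
      · exact absurd h hne
    have h22 : (2 : F) = 0 := by
      have : 2 * z.im = 0 := by linear_combination -h2
      exact (mul_eq_zero.mp this).resolve_right hne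
    apply hD
    rw [ha]
    linear_combination (-2 * b) * h22
  ext
  · simp
  · simp [him]

theorem e4m_range (hD : a ^ 2 - 4 * b ≠ 0) (M : W) (hM : Mᴴ = M) : ∃ v, e4m a b v = M := by
  have h : ∀ i j, star (M j i) = M i j := fun i j => congrFun (congrFun hM i) j
  refine ⟨fun i => match i with
    | .inl (.inl _) => (M 0 0).re
    | .inl (.inr _) => -(M 1 1).re
    | .inr 0 => (M 0 1).re
    | .inr 1 => (M 0 1).im, ?_⟩
  rw [e4m_apply]
  apply Matrix.ext
  intro i j
  fin_cases i <;> fin_cases j
  · exact (star_fixed a b hD _ (h 0 0)).symm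
  · rfl
  · exact h 1 0
  · simp only [map_neg, neg_neg]
    exact (star_fixed a b hD _ (h 1 1)).symm

theorem e4m_herm (v : (Fin 1 ⊕ Fin 1) ⊕ Fin 2 → F) : (e4m a b v)ᴴ = e4m a b v := by
  rw [e4m_apply]
  apply Matrix.ext
  intro i j
  fin_cases i <;> fin_cases j <;> simp [Matrix.conjTranspose_apply] <;> ext <;> simp

theorem det_e4m (v : (Fin 1 ⊕ Fin 1) ⊕ Fin 2 → F) :
    -((e4m a b v).det).re = minusQF 1 F a b v := by
  rw [e4m_apply, Matrix.det_fin_two, minusQF_apply]
  simp
  ring

local notation "S" => Matrix.SpecialLinearGroup (Fin 2) (QuadraticAlgebra F (-b) a)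

/-- The homomorphism `SL₂(E) → O₄⁻`. -/
noncomputable def rho4m (hD : a ^ 2 - 4 * b ≠ 0) : S →* OQ (minusQF 1 F a b) :=
  liftOQ (minusQF 1 F a b) (e4m a b) (e4m_injective a b)
    ((congAct F (R := W) Matrix.conjTranspose Matrix.conjTranspose_one
      Matrix.conjTranspose_mul).comp Matrix.SpecialLinearGroup.toGL)
    (fun g v => e4m_range a b hD _ (by
      show ((g : W) * e4m a b v * (g : W)ᴴ)ᴴ = (g : W) * e4m a b v * (g : W)ᴴ
      rw [Matrix.conjTranspose_mul, Matrix.conjTranspose_mul, Matrix.conjTranspose_conjTranspose,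
        e4m_herm, mul_assoc]))
    (fun M => -(M.det).re) (det_e4m a b) (fun g v => by
      show -(((g : W) * e4m a b v * (g : W)ᴴ).det).re = _
      rw [Matrix.det_mul, Matrix.det_mul, Matrix.det_conjTranspose, g.det_coe]
      simp)

theorem rho4m_eq_one_iff (hD : a ^ 2 - 4 * b ≠ 0) (g : S) :
    rho4m a b hD g = 1 ↔ ∀ v, (g : W) * e4m a b v * (g : W)ᴴ = e4m a b v :=
  liftOQ_eq_one_iff _ _ _ _ _ _ _ _ g

theorem mem_rho4m_ker [Fact (∀ r : F, r ^ 2 ≠ -b + a * r)] (hD : a ^ 2 - 4 * b ≠ 0) (g : S) :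
    g ∈ (rho4m a b hD).ker ↔ ((g : W) = 1 ∨ (g : W) = -1) := by
  rw [MonoidHom.mem_ker, rho4m_eq_one_iff]
  constructor
  · intro h
    have hH : ∀ M : W, Mᴴ = M → (g : W) * M * (g : W)ᴴ = M := by
      intro M hM
      obtain ⟨v, rfl⟩ := e4m_range a b hD M hM
      exact h v
    have h1 : (g : W) * (g : W)ᴴ = 1 := by
      have := hH 1 Matrix.conjTranspose_one
      rwa [mul_one] at this
    have h1' : (g : W)ᴴ * (g : W) = 1 := _root_.mul_eq_one_comm.mp h1
    have hc : ∀ M : W, Mᴴ = M → (g : W) * M = M * (g : W) := by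
      intro M hM
      have := hH M hM
      calc (g : W) * M = (g : W) * M * ((g : W)ᴴ * (g : W)) := by rw [h1', mul_one]
        _ = ((g : W) * M * (g : W)ᴴ) * (g : W) := by simp only [mul_assoc]
        _ = M * (g : W) := by rw [this]
    have c1 := hc !![1, 0; 0, 0] (by
      apply Matrix.ext; intro i j
      fin_cases i <;> fin_cases j <;> simp [Matrix.conjTranspose_apply])
    have c2 := hc !![0, 1; 1, 0] (by
      apply Matrix.ext; intro i j
      fin_cases i <;> fin_cases j <;> simp [Matrix.conjTranspose_apply])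
    have hdet := g.det_coe
    rw [Matrix.det_fin_two] at hdet
    have hXeta := Matrix.eta_fin_two (g : W)
    set x := (g : W) 0 0
    set y := (g : W) 0 1
    set z := (g : W) 1 0
    set w := (g : W) 1 1
    rw [hXeta] at c1 c2 ⊢
    have c1a := congrFun (congrFun c1 0) 1
    have c1b := congrFun (congrFun c1 1) 0
    have c2a := congrFun (congrFun c2 0) 1
    simp at c1a c1b c2a
    rw [← c1a, c1b, c2a] at hdet ⊢
    have : (w - 1) * (w + 1) = 0 := by linear_combination hdet
    rcases mul_eq_zero.mp this with h | h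
    · left
      have : w = 1 := by linear_combination h
      rw [this]
      apply Matrix.ext; intro i j
      fin_cases i <;> fin_cases j <;> simp
    · right
      have : w = -1 := by linear_combination h
      rw [this]
      apply Matrix.ext; intro i j
      fin_cases i <;> fin_cases j <;> simp
  · rintro (h | h) v <;> rw [h] <;> simp

end Cfsg.Agent.Lib.Helper14
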