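import Mathlib
import Cfsg.Agent.Lib.Helper14.ExcIsoMod
import Cfsg.Agent.Lib.Helper44.StdForms

/-! `S₆ → O₄⁻(3)`. -/

set_option autoImplicit false

namespace Cfsg.Agent.Lib.Helper14

open Cfsg.Agent.Lib.Helper44

local notation "k" => ZMod 3

theorem three_eq_zero_k : (3 : k) = 0 := by decide

/-- coordinates on the heart of the permutation module -/
def eS6 : ((Fin 1 ⊕ Fin 1) ⊕ Fin 2 → k) →ₗ[k] (Fin 6 → k) where
  toFun v := ![0, v (.inr 0) + v (.inr 1),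
    v (.inl (.inr 0)) + 2 * (v (.inr 0) + v (.inr 1)),
    v (.inl (.inl 0)) + 2 * (v (.inr 0) + v (.inr 1)),
    v (.inl (.inl 0)) + v (.inl (.inr 0)) + v (.inr 1),
    v (.inl (.inl 0)) + v (.inl (.inr 0)) + v (.inr 0)]
  map_add' x y := by
    ext i; fin_cases i <;> simp <;> ring
  map_smul' c x := by
    ext i; fin_cases i <;> simp <;> ring

theorem eS6_apply (v : (Fin 1 ⊕ Fin 1) ⊕ Fin 2 → k) : eS6 v = ![0, v (.inr 0) + v (.inr 1),
    v (.inl (.inr 0)) + 2 * (v (.inr 0) + v (.inr 1)),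
    v (.inl (.inl 0)) + 2 * (v (.inr 0) + v (.inr 1)),
    v (.inl (.inl 0)) + v (.inl (.inr 0)) + v (.inr 1),
    v (.inl (.inl 0)) + v (.inl (.inr 0)) + v (.inr 0)] := rfl

/-- the constants -/
def US6 : Submodule k (Fin 6 → k) := Submodule.span k {fun _ => 1}

theorem mem_US6 (w : Fin 6 → k) : w ∈ US6 ↔ ∃ c : k, ∀ i, w i = c := by
  rw [US6, Submodule.mem_span_singleton]
  constructor
  · rintro ⟨c, rfl⟩
    exact ⟨c, fun i => by simp⟩
  · rintro ⟨c, hc⟩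
    exact ⟨c, by ext i; simp [hc i]⟩

theorem eS6_inj (x : (Fin 1 ⊕ Fin 1) ⊕ Fin 2 → k) (h : eS6 x ∈ US6) : x = 0 := by
  rw [mem_US6] at h
  obtain ⟨c, hc⟩ := h
  rw [eS6_apply] at hc
  have h0 := hc 0
  have h1 := hc 1
  have h2 := hc 2
  have h3 := hc 3
  have h4 := hc 4
  have h5 := hc 5
  simp at h0 h1 h2 h3 h4 h5
  rw [← h0] at h1 h2 h3 h4 h5
  have hy : x (.inl (.inr 0)) = 0 := by linear_combination h2 - 2 * h1
  have hx : x (.inl (.inl 0)) = 0 := by linear_combination h3 - 2 * h1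
  have hz2 : x (.inr 1) = 0 := by linear_combination h4 - hx - hy
  have hz1 : x (.inr 0) = 0 := by linear_combination h5 - hx - hy
  ext i
  rcases i with (i | i) | i <;> fin_cases i
  · exact hx
  · exact hy
  · exact hz1
  · exact hz2

theorem eS6_sum (v : (Fin 1 ⊕ Fin 1) ⊕ Fin 2 → k) : ∑ i, eS6 v i = 0 := by
  rw [eS6_apply]
  simp [Fin.sum_univ_six]
  linear_combination (2 * (v (.inr 0) + v (.inr 1)) + v (.inl (.inl 0)) + v (.inl (.inr 0)))
    * three_eq_zero_k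

theorem eS6_range (w : Fin 6 → k) (hw : ∑ i, w i = 0) : ∃ v, eS6 v - w ∈ US6 := by
  rw [Fin.sum_univ_six] at hw
  refine ⟨fun i => match i with
    | .inl (.inl _) => (w 3 - w 0) + (w 1 - w 0)
    | .inl (.inr _) => (w 2 - w 0) + (w 1 - w 0)
    | .inr 0 => (w 5 - w 0) - ((w 3 - w 0) + (w 1 - w 0)) - ((w 2 - w 0) + (w 1 - w 0))
    | .inr 1 => (w 4 - w 0) - ((w 3 - w 0) + (w 1 - w 0)) - ((w 2 - w 0) + (w 1 - w 0)), ?_⟩
  rw [mem_US6]
  refine ⟨- w 0, ?_⟩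
  intro i
  rw [eS6_apply]
  fin_cases i <;> simp
  · linear_combination hw + (- w 3 - w 2 - 2 * w 1 + 2 * w 0) * three_eq_zero_k
  · linear_combination 2 * hw + (-2 * w 3 - 2 * w 2 - 3 * w 1 + 3 * w 0) * three_eq_zero_k
  · linear_combination 2 * hw + (-2 * w 3 - 2 * w 2 - 3 * w 1 + 3 * w 0) * three_eq_zero_k

/-- the form -/
def NS6 (w : Fin 6 → k) : k := ∑ i, w i ^ 2

theorem NS6_eS6 (v : (Fin 1 ⊕ Fin 1) ⊕ Fin 2 → k) : NS6 (eS6 v) = minusQF 1 k 0 1 v := by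
  rw [NS6, eS6_apply, minusQF_apply]
  simp [Fin.sum_univ_six]
  linear_combination (3 * (v (.inr 0) + v (.inr 1)) ^ 2 + v (.inl (.inl 0)) ^ 2
    + v (.inl (.inr 0)) ^ 2 + v (.inl (.inl 0)) * v (.inl (.inr 0))
    + 2 * v (.inl (.inr 0)) * (v (.inr 0) + v (.inr 1))
    + 2 * v (.inl (.inl 0)) * (v (.inr 0) + v (.inr 1))) * three_eq_zero_k

theorem NS6_sub (v : (Fin 1 ⊕ Fin 1) ⊕ Fin 2 → k) (u : Fin 6 → k) (hu : u ∈ US6) :
    NS6 (eS6 v - u) = NS6 (eS6 v) := by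
  rw [mem_US6] at hu
  obtain ⟨c, hc⟩ := hu
  have hs := eS6_sum v
  unfold NS6
  simp only [Pi.sub_apply, hc]
  rw [Fin.sum_univ_six] at hs ⊢
  rw [Fin.sum_univ_six]
  linear_combination (-2 * c) * hs + (2 * c ^ 2) * three_eq_zero_k

theorem NS6_perm (σ : Equiv.Perm (Fin 6)) (w : Fin 6 → k) : NS6 (permRep 6 k σ w) = NS6 w := by
  unfold NS6
  simp only [permRep_apply]
  exact Equiv.sum_comp σ.symm (fun i => w i ^ 2)

/-- `S₆ → O₄⁻(3)` -/
noncomputable def rhoS6 : Equiv.Perm (Fin 6) →* OQ (minusQF 1 k 0 1) :=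
  liftOQM (minusQF 1 k 0 1) eS6 US6 eS6_inj (permRep 6 k)
    (fun σ u hu => by
      rw [mem_US6] at hu ⊢
      obtain ⟨c, hc⟩ := hu
      exact ⟨c, fun i => by rw [permRep_apply, hc]⟩)
    (fun σ v => eS6_range _ (by
      simp only [permRep_apply]
      rw [Equiv.sum_comp σ.symm (fun i => eS6 v i)]
      exact eS6_sum v))
    NS6 NS6_eS6 NS6_sub NS6_perm

theorem rhoS6_eq_one_iff (σ : Equiv.Perm (Fin 6)) :
    rhoS6 σ = 1 ↔ ∀ v, eS6 v - permRep 6 k σ (eS6 v) ∈ US6 :=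
  liftOQM_eq_one_iff _ _ _ _ _ _ _ _ _ _ _ σ

theorem rhoS6_injective : Function.Injective rhoS6 := by
  rw [injective_iff_map_eq_one]
  intro σ hσ
  rw [rhoS6_eq_one_iff] at hσ
  have h1 : ∀ w : Fin 6 → k, ∑ i, w i = 0 → w - permRep 6 k σ w ∈ US6 := by
    intro w hw
    obtain ⟨v, hv⟩ := eS6_range w hw
    have h2 := hσ v
    have h3 : permRep 6 k σ (eS6 v - w) ∈ US6 := by
      rw [mem_US6] at hv ⊢
      obtain ⟨c, hc⟩ := hv
      exact ⟨c, fun i => by rw [permRep_apply, hc]⟩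
    have := US6.add_mem (US6.sub_mem h2 hv) h3
    convert this using 1
    rw [map_sub]
    abel
  apply Equiv.ext
  intro i
  obtain ⟨j, hj⟩ : ∃ j : Fin 6, j ≠ i := by
    revert i; decide
  have h2 := h1 (Pi.single i 1 - Pi.single j 1) (by
    simp [Finset.sum_sub_distrib])
  rw [mem_US6] at h2
  obtain ⟨c, hc⟩ := h2
  obtain ⟨x, hx1, hx2, hx3, hx4⟩ : ∃ x : Fin 6, x ≠ i ∧ x ≠ j ∧ x ≠ σ i ∧ x ≠ σ j := by
    have : ∀ a b c d : Fin 6, ∃ x : Fin 6, x ≠ a ∧ x ≠ b ∧ x ≠ c ∧ x ≠ d := by decide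
    exact this _ _ _ _
  have hc0 : c = 0 := by
    have := hc x
    have e1 : σ.symm x ≠ i := fun h => hx3 (by rw [← h]; simp)
    have e2 : σ.symm x ≠ j := fun h => hx4 (by rw [← h]; simp)
    simp [permRep_apply, hx1, hx2, e1, e2] at this
    exact this.symm
  have h3 := hc (σ i)
  rw [hc0] at h3
  simp [permRep_apply, Pi.single_apply, hj.symm] at h3
  by_contra hne
  have hne' : ¬ (σ i = i) := hne
  simp [hne'] at h3
  split_ifs at h3 with h4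
  · revert h3; decide
  · revert h3; decide

end Cfsg.Agent.Lib.Helper14
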