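import Mathlib
import Cfsg.Agent.Lib.Helper14.GSp4

/-! `O₅(F) = ± ρ(GSp₄(F))` for an arbitrary field. -/

set_option autoImplicit false

namespace Cfsg.Agent.Lib.Helper14

open Matrix Cfsg.Agent.Lib.Helper44 QuadraticMap

variable {F : Type*} [Field F]

local notation "W" => Matrix (Fin 4) (Fin 4) F
local notation "V5" => (Unit ⊕ (Fin 2 ⊕ Fin 2) → F)

/-- coordinates `x₀; x₁, x₂; y₁, y₂` -/
def mk5 (x0 x1 x2 y1 y2 : F) : V5
  | .inl _ => x0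
  | .inr (.inl 0) => x1
  | .inr (.inl 1) => x2
  | .inr (.inr 0) => y1
  | .inr (.inr 1) => y2

omit [Field F] in
theorem eq_mk5 (v : V5) : v = mk5 (v (.inl ())) (v (.inr (.inl 0))) (v (.inr (.inl 1)))
    (v (.inr (.inr 0))) (v (.inr (.inr 1))) := by
  ext i
  rcases i with ⟨⟩ | i | i
  · rfl
  · fin_cases i <;> rfl
  · fin_cases i <;> rfl

theorem e5_mk5 (x0 x1 x2 y1 y2 : F) : e5 (mk5 x0 x1 x2 y1 y2) =
    !![0, x1, x0, x2; -x1, 0, y2, -x0; -x0, -y2, 0, y1; -x2, x0, -y1, 0] := by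
  rw [e5_apply, e6_apply]
  rfl

theorem Q_mk5 (x0 x1 x2 y1 y2 : F) : oddQF 2 F (mk5 x0 x1 x2 y1 y2) = x0 ^ 2 + x1 * y1 + x2 * y2 := by
  rw [oddQF_apply, Fin.sum_univ_two]
  simp [mk5]
  ring

theorem mk5_eq_zero_iff (x0 x1 x2 y1 y2 : F) :
    mk5 x0 x1 x2 y1 y2 = 0 ↔ x0 = 0 ∧ x1 = 0 ∧ x2 = 0 ∧ y1 = 0 ∧ y2 = 0 := by
  constructor
  · intro h
    exact ⟨congrFun h (.inl ()), congrFun h (.inr (.inl 0)), congrFun h (.inr (.inl 1)),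
      congrFun h (.inr (.inr 0)), congrFun h (.inr (.inr 1))⟩
  · rintro ⟨rfl, rfl, rfl, rfl, rfl⟩
    ext i
    rcases i with ⟨⟩ | i | i
    · rfl
    · fin_cases i <;> rfl
    · fin_cases i <;> rfl

/-! ### explicit elements -/

/-- swaps `x₁ ↔ y₁`, `x₂ ↔ y₂` -/
theorem exists_wJ : ∃ a : GSp F, ∀ x0 x1 x2 y1 y2 : F,
    (rhoG a : V5 ≃ₗ[F] V5) (mk5 x0 x1 x2 y1 y2) = mk5 x0 y1 y2 x1 x2 := by
  refine ⟨mkG J4 1 one_ne_zero ?_, ?_⟩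
  · ext i j
    fin_cases i <;> fin_cases j <;> simp [J4, Matrix.mul_apply, Fin.sum_univ_four]
  · intro x0 x1 x2 y1 y2
    apply rhoG_mkG
    rw [e5_mk5, e5_mk5]
    ext i j
    fin_cases i <;> fin_cases j <;> simp [J4, Matrix.mul_apply, Fin.sum_univ_four]

/-- swaps the two hyperbolic pairs -/
theorem exists_w2 : ∃ a : GSp F, ∀ x0 x1 x2 y1 y2 : F,
    (rhoG a : V5 ≃ₗ[F] V5) (mk5 x0 x1 x2 y1 y2) = mk5 x0 (-x2) x1 (-y2) y1 := by
  refine ⟨mkG !![1,0,0,0; 0,0,0,-1; 0,0,1,0; 0,1,0,0] 1 one_ne_zero ?_, ?_⟩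
  · ext i j
    fin_cases i <;> fin_cases j <;> simp [J4, Matrix.mul_apply, Fin.sum_univ_four]
  · intro x0 x1 x2 y1 y2
    apply rhoG_mkG
    rw [e5_mk5, e5_mk5]
    ext i j
    fin_cases i <;> fin_cases j <;> simp [Matrix.mul_apply, Fin.sum_univ_four]

set_option maxHeartbeats 2000000 in
theorem T1_aux (x0 x1 x2 y1 y2 : F) (hx : x1 ≠ 0) (hQ : x0 ^ 2 + x1 * y1 + x2 * y2 = 0) :
    ∃ a : GSp F, (rhoG a : V5 ≃ₗ[F] V5) (mk5 0 1 0 0 0) = mk5 x0 x1 x2 y1 y2 := by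
  refine ⟨mkG !![x1,0,0,0; 0,x1,0,0; -y2,x0,1,0; x0,x2,0,1] x1 hx ?_, ?_⟩
  · ext i j
    fin_cases i <;> fin_cases j <;> simp [J4, Matrix.mul_apply, Fin.sum_univ_four]
  · apply rhoG_mkG
    rw [e5_mk5, e5_mk5]
    ext i j
    fin_cases i <;> fin_cases j <;> simp [Matrix.mul_apply, Fin.sum_univ_four] <;>
      first | ring1 | linear_combination hQ | linear_combination -hQ

theorem T1 (v : V5) (hv : v ≠ 0) (hQ : oddQF 2 F v = 0) :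
    ∃ a : GSp F, (rhoG a : V5 ≃ₗ[F] V5) (mk5 0 1 0 0 0) = v := by
  rw [eq_mk5 v] at hv hQ ⊢
  generalize v (.inl ()) = x0 at hv hQ ⊢
  generalize v (.inr (.inl 0)) = x1 at hv hQ ⊢
  generalize v (.inr (.inl 1)) = x2 at hv hQ ⊢
  generalize v (.inr (.inr 0)) = y1 at hv hQ ⊢
  generalize v (.inr (.inr 1)) = y2 at hv hQ ⊢
  rw [Q_mk5] at hQ
  obtain ⟨wJ, hwJ⟩ := exists_wJ (F := F)
  obtain ⟨w2, hw2⟩ := exists_w2 (F := F)
  by_cases h1 : x1 = 0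
  · by_cases h2 : y1 = 0
    · by_cases h3 : x2 = 0
      · have h4 : y2 ≠ 0 := by
          intro h4
          apply hv
          rw [mk5_eq_zero_iff]
          refine ⟨?_, h1, h3, h2, h4⟩
          rw [h1, h3] at hQ
          simpa using hQ
        obtain ⟨a, ha⟩ := T1_aux x0 (-y2) y1 (-x2) x1 (neg_ne_zero.mpr h4) (by linear_combination hQ)
        refine ⟨wJ⁻¹ * w2⁻¹ * a, ?_⟩
        rw [map_mul, map_mul, map_inv, map_inv]
        show ((rhoG wJ)⁻¹ : OQ (oddQF 2 F)).1 (((rhoG w2)⁻¹ : OQ (oddQF 2 F)).1 ((rhoG a).1 _)) = _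
        rw [ha, ← hw2, ← hwJ]
        simp
      · obtain ⟨a, ha⟩ := T1_aux x0 (-x2) x1 (-y2) y1 (neg_ne_zero.mpr h3) (by linear_combination hQ)
        refine ⟨w2⁻¹ * a, ?_⟩
        rw [map_mul, map_inv]
        show ((rhoG w2)⁻¹ : OQ (oddQF 2 F)).1 ((rhoG a).1 _) = _
        rw [ha, ← hw2]
        simp
    · obtain ⟨a, ha⟩ := T1_aux x0 y1 y2 x1 x2 h2 (by linear_combination hQ)
      refine ⟨wJ⁻¹ * a, ?_⟩
      rw [map_mul, map_inv]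
      show ((rhoG wJ)⁻¹ : OQ (oddQF 2 F)).1 ((rhoG a).1 _) = _
      rw [ha, ← hwJ]
      simp
  · exact T1_aux x0 x1 x2 y1 y2 h1 hQ

set_option maxHeartbeats 2000000 in
theorem T2 (x0 x1 x2 y2 : F) (hQ : x0 ^ 2 + x1 + x2 * y2 = 0) :
    ∃ a : GSp F, (rhoG a : V5 ≃ₗ[F] V5) (mk5 0 1 0 0 0) = mk5 0 1 0 0 0 ∧
      (rhoG a : V5 ≃ₗ[F] V5) (mk5 0 0 0 1 0) = mk5 x0 x1 x2 1 y2 := by
  refine ⟨mkG !![1,0,x2,-x0; 0,1,-x0,-y2; 0,0,1,0; 0,0,0,1] 1 one_ne_zero ?_, ?_, ?_⟩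
  · ext i j
    fin_cases i <;> fin_cases j <;> simp [J4, Matrix.mul_apply, Fin.sum_univ_four]
  · apply rhoG_mkG
    rw [e5_mk5]
    ext i j
    fin_cases i <;> fin_cases j <;> simp [Matrix.mul_apply, Fin.sum_univ_four]
  · apply rhoG_mkG
    rw [e5_mk5, e5_mk5]
    ext i j
    fin_cases i <;> fin_cases j <;> simp [Matrix.mul_apply, Fin.sum_univ_four] <;>
      first | ring1 | linear_combination hQ | linear_combination -hQ

set_option maxHeartbeats 2000000 in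
theorem T3 (x0 x2 y2 : F) (hv : mk5 x0 0 x2 0 y2 ≠ 0) (hQ : x0 ^ 2 + x2 * y2 = 0) :
    ∃ a : GSp F, (rhoG a : V5 ≃ₗ[F] V5) (mk5 0 1 0 0 0) = mk5 0 1 0 0 0 ∧
      (rhoG a : V5 ≃ₗ[F] V5) (mk5 0 0 0 1 0) = mk5 0 0 0 1 0 ∧
      (rhoG a : V5 ≃ₗ[F] V5) (mk5 0 0 1 0 0) = mk5 x0 0 x2 0 y2 := by
  by_cases hx : x2 = 0
  · subst hx
    have hx0 : x0 = 0 := by simpa using hQ
    subst hx0
    have hy : y2 ≠ 0 := by
      intro hy
      apply hv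
      rw [mk5_eq_zero_iff]
      exact ⟨rfl, rfl, rfl, rfl, hy⟩
    refine ⟨mkG !![0,1,0,0; y2,0,0,0; 0,0,0,-y2; 0,0,-1,0] (-y2) (neg_ne_zero.mpr hy) ?_, ?_, ?_, ?_⟩
    · ext i j
      fin_cases i <;> fin_cases j <;> simp [J4, Matrix.mul_apply, Fin.sum_univ_four]
    · apply rhoG_mkG
      rw [e5_mk5]
      ext i j
      fin_cases i <;> fin_cases j <;> simp [Matrix.mul_apply, Fin.sum_univ_four]
    · apply rhoG_mkG
      rw [e5_mk5]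
      ext i j
      fin_cases i <;> fin_cases j <;> simp [Matrix.mul_apply, Fin.sum_univ_four]
    · apply rhoG_mkG
      rw [e5_mk5, e5_mk5]
      ext i j
      fin_cases i <;> fin_cases j <;> simp [Matrix.mul_apply, Fin.sum_univ_four]
  · refine ⟨mkG !![x2,0,0,0; -x0,1,0,0; 0,0,1,x0; 0,0,0,x2] x2 hx ?_, ?_, ?_, ?_⟩
    · ext i j
      fin_cases i <;> fin_cases j <;> simp [J4, Matrix.mul_apply, Fin.sum_univ_four] <;> ring
    · apply rhoG_mkG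
      rw [e5_mk5]
      ext i j
      fin_cases i <;> fin_cases j <;> simp [Matrix.mul_apply, Fin.sum_univ_four]
    · apply rhoG_mkG
      rw [e5_mk5]
      ext i j
      fin_cases i <;> fin_cases j <;> simp [Matrix.mul_apply, Fin.sum_univ_four]
    · apply rhoG_mkG
      rw [e5_mk5, e5_mk5]
      ext i j
      fin_cases i <;> fin_cases j <;> simp [Matrix.mul_apply, Fin.sum_univ_four] <;>
        first | ring1 | linear_combination hQ | linear_combination -hQ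

set_option maxHeartbeats 2000000 in
theorem T4 (x0 x2 : F) (hQ : x0 ^ 2 + x2 = 0) :
    ∃ a : GSp F, (rhoG a : V5 ≃ₗ[F] V5) (mk5 0 1 0 0 0) = mk5 0 1 0 0 0 ∧
      (rhoG a : V5 ≃ₗ[F] V5) (mk5 0 0 0 1 0) = mk5 0 0 0 1 0 ∧
      (rhoG a : V5 ≃ₗ[F] V5) (mk5 0 0 1 0 0) = mk5 0 0 1 0 0 ∧
      (rhoG a : V5 ≃ₗ[F] V5) (mk5 0 0 0 0 1) = mk5 x0 0 x2 0 1 := by
  refine ⟨mkG !![1,x0,0,0; 0,1,0,0; 0,0,1,0; 0,0,-x0,1] 1 one_ne_zero ?_, ?_, ?_, ?_, ?_⟩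
  · ext i j
    fin_cases i <;> fin_cases j <;> simp [J4, Matrix.mul_apply, Fin.sum_univ_four]
  · apply rhoG_mkG
    rw [e5_mk5]
    ext i j
    fin_cases i <;> fin_cases j <;> simp [Matrix.mul_apply, Fin.sum_univ_four]
  · apply rhoG_mkG
    rw [e5_mk5]
    ext i j
    fin_cases i <;> fin_cases j <;> simp [Matrix.mul_apply, Fin.sum_univ_four]
  · apply rhoG_mkG
    rw [e5_mk5]
    ext i j
    fin_cases i <;> fin_cases j <;> simp [Matrix.mul_apply, Fin.sum_univ_four]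
  · apply rhoG_mkG
    rw [e5_mk5, e5_mk5]
    ext i j
    fin_cases i <;> fin_cases j <;> simp [Matrix.mul_apply, Fin.sum_univ_four] <;>
      first | ring1 | linear_combination hQ | linear_combination -hQ

/-- `-r_{e₀}` -/
theorem exists_t0 : ∃ a : GSp F, ∀ x0 x1 x2 y1 y2 : F,
    (rhoG a : V5 ≃ₗ[F] V5) (mk5 x0 x1 x2 y1 y2) = mk5 x0 (-x1) (-x2) (-y1) (-y2) := by
  refine ⟨mkG !![1,0,0,0; 0,-1,0,0; 0,0,1,0; 0,0,0,-1] 1 one_ne_zero ?_, ?_⟩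
  · ext i j
    fin_cases i <;> fin_cases j <;> simp [J4, Matrix.mul_apply, Fin.sum_univ_four]
  · intro x0 x1 x2 y1 y2
    apply rhoG_mkG
    rw [e5_mk5, e5_mk5]
    ext i j
    fin_cases i <;> fin_cases j <;> simp [Matrix.mul_apply, Fin.sum_univ_four]

end Cfsg.Agent.Lib.Helper14
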