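import Mathlib
import Cfsg.Agent.Lib.Helper14.Omega5Gen

/-! `O₅(F) = ± ρ(GSp₄(F))` for an arbitrary field: the decomposition. -/

set_option autoImplicit false

namespace Cfsg.Agent.Lib.Helper14

open Matrix Cfsg.Agent.Lib.Helper44 QuadraticMap

variable {F : Type*} [Field F]

local notation "W" => Matrix (Fin 4) (Fin 4) F
local notation "V5" => (Unit ⊕ (Fin 2 ⊕ Fin 2) → F)
local notation "O5" => OQ (oddQF 2 F)

/-- `-1` in the orthogonal group. -/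
def negO : O5 := ⟨LinearEquiv.neg F, by
  intro v
  simp⟩

theorem negO_apply (v : V5) : (negO : O5).1 v = -v := rfl

theorem negO_comm (g : O5) : negO * g = g * negO := by
  apply Subtype.ext
  ext v : 1
  show -(g.1 v) = g.1 (-v)
  rw [map_neg]

theorem negO_sq : (negO : O5) * negO = 1 := by
  apply Subtype.ext
  ext v : 1
  show - -v = v
  rw [neg_neg]

/-- `g ∈ ± ρ(GSp₄)` -/
def InP (g : O5) : Prop := ∃ a : GSp F, g = rhoG a ∨ g = negO * rhoG a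

theorem InP_of_mul (a : GSp F) (g : O5) (h : InP ((rhoG a)⁻¹ * g)) : InP g := by
  obtain ⟨b, hb | hb⟩ := h
  · refine ⟨a * b, Or.inl ?_⟩
    rw [map_mul, ← hb]; group
  · refine ⟨a * b, Or.inr ?_⟩
    rw [map_mul, ← mul_assoc, negO_comm, mul_assoc, ← hb]; group

theorem inv_mul_apply_of (a : GSp F) (g : O5) (u : V5) (h : (rhoG a).1 u = g.1 u) :
    ((rhoG a)⁻¹ * g).1 u = u := by
  show ((rhoG a)⁻¹ : O5).1 (g.1 u) = u
  rw [← h]
  show (((rhoG a)⁻¹ : O5) * rhoG a).1 u = u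
  rw [inv_mul_cancel]
  rfl

theorem polar_E1 (x : V5) : polar (oddQF 2 F) (mk5 0 1 0 0 0) x = x (.inr (.inr 0)) := by
  rw [oddQF_polar, Fin.sum_univ_two]; simp [mk5]
theorem polar_F1 (x : V5) : polar (oddQF 2 F) (mk5 0 0 0 1 0) x = x (.inr (.inl 0)) := by
  rw [oddQF_polar, Fin.sum_univ_two]; simp [mk5]
theorem polar_E2 (x : V5) : polar (oddQF 2 F) (mk5 0 0 1 0 0) x = x (.inr (.inr 1)) := by
  rw [oddQF_polar, Fin.sum_univ_two]; simp [mk5]
theorem polar_F2 (x : V5) : polar (oddQF 2 F) (mk5 0 0 0 0 1) x = x (.inr (.inl 1)) := by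
  rw [oddQF_polar, Fin.sum_univ_two]; simp [mk5]

theorem mk5_decomp (x0 x1 x2 y1 y2 : F) : mk5 x0 x1 x2 y1 y2 =
    x0 • mk5 1 0 0 0 0 + x1 • mk5 0 1 0 0 0 + x2 • mk5 0 0 1 0 0 + y1 • mk5 0 0 0 1 0
      + y2 • mk5 0 0 0 0 1 := by
  ext i
  rcases i with ⟨⟩ | i | i
  · simp [mk5]
  · fin_cases i <;> simp [mk5]
  · fin_cases i <;> simp [mk5]

theorem L5 (g : O5) (h1 : g.1 (mk5 0 1 0 0 0) = mk5 0 1 0 0 0)
    (h2 : g.1 (mk5 0 0 0 1 0) = mk5 0 0 0 1 0) (h3 : g.1 (mk5 0 0 1 0 0) = mk5 0 0 1 0 0)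
    (h4 : g.1 (mk5 0 0 0 0 1) = mk5 0 0 0 0 1) : InP g := by
  set v := g.1 (mk5 1 0 0 0 0) with hv
  have p1 : v (.inr (.inr 0)) = 0 := by
    rw [← polar_E1 v, ← h1, hv, OQ_polar g.2, polar_E1]; rfl
  have p2 : v (.inr (.inl 0)) = 0 := by
    rw [← polar_F1 v, ← h2, hv, OQ_polar g.2, polar_F1]; rfl
  have p3 : v (.inr (.inr 1)) = 0 := by
    rw [← polar_E2 v, ← h3, hv, OQ_polar g.2, polar_E2]; rfl
  have p4 : v (.inr (.inl 1)) = 0 := by
    rw [← polar_F2 v, ← h4, hv, OQ_polar g.2, polar_F2]; rfl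
  have hvQ : oddQF 2 F v = 1 := by
    rw [hv, g.2, Q_mk5]; simp
  have hv' := eq_mk5 v
  rw [p1, p2, p3, p4] at hv'
  rw [hv', Q_mk5] at hvQ
  have hc : (v (.inl ()) - 1) * (v (.inl ()) + 1) = 0 := by linear_combination hvQ
  rcases mul_eq_zero.mp hc with hc | hc
  · have hc1 : v (.inl ()) = 1 := by linear_combination hc
    rw [hc1] at hv'
    refine ⟨1, Or.inl ?_⟩
    rw [map_one]
    apply Subtype.ext
    ext u : 1
    rw [eq_mk5 u, mk5_decomp]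
    simp only [map_add, map_smul, h1, h2, h3, h4, ← hv, hv']
    rfl
  · have hc1 : v (.inl ()) = -1 := by linear_combination hc
    rw [hc1] at hv'
    obtain ⟨t0, ht0⟩ := exists_t0 (F := F)
    refine ⟨t0, Or.inr ?_⟩
    apply Subtype.ext
    ext u : 1
    show g.1 u = -((rhoG t0).1 u)
    rw [eq_mk5 u, ht0, mk5_decomp]
    simp only [map_add, map_smul, h1, h2, h3, h4, ← hv, hv']
    generalize u (.inl ()) = x0
    generalize u (.inr (.inl 0)) = x1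
    generalize u (.inr (.inl 1)) = x2
    generalize u (.inr (.inr 0)) = y1
    generalize u (.inr (.inr 1)) = y2
    ext i
    rcases i with ⟨⟩ | i | i
    · simp [mk5]
    · fin_cases i <;> simp [mk5]
    · fin_cases i <;> simp [mk5]

theorem L4 (g : O5) (h1 : g.1 (mk5 0 1 0 0 0) = mk5 0 1 0 0 0)
    (h2 : g.1 (mk5 0 0 0 1 0) = mk5 0 0 0 1 0) (h3 : g.1 (mk5 0 0 1 0 0) = mk5 0 0 1 0 0) :
    InP g := by
  set v := g.1 (mk5 0 0 0 0 1) with hv
  have p1 : v (.inr (.inr 0)) = 0 := by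
    rw [← polar_E1 v, ← h1, hv, OQ_polar g.2, polar_E1]; rfl
  have p2 : v (.inr (.inl 0)) = 0 := by
    rw [← polar_F1 v, ← h2, hv, OQ_polar g.2, polar_F1]; rfl
  have p3 : v (.inr (.inr 1)) = 1 := by
    rw [← polar_E2 v, ← h3, hv, OQ_polar g.2, polar_E2]; rfl
  have hvQ : oddQF 2 F v = 0 := by
    rw [hv, g.2, Q_mk5]; simp
  have hv' := eq_mk5 v
  rw [p1, p2, p3] at hv'
  rw [hv', Q_mk5] at hvQ
  obtain ⟨a, a1, a2, a3, a4⟩ := T4 (v (.inl ())) (v (.inr (.inl 1))) (by linear_combination hvQ)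
  apply InP_of_mul a
  apply L5
  · exact inv_mul_apply_of a g _ (a1.trans h1.symm)
  · exact inv_mul_apply_of a g _ (a2.trans h2.symm)
  · exact inv_mul_apply_of a g _ (a3.trans h3.symm)
  · exact inv_mul_apply_of a g _ (a4.trans hv'.symm)

theorem L3 (g : O5) (h1 : g.1 (mk5 0 1 0 0 0) = mk5 0 1 0 0 0)
    (h2 : g.1 (mk5 0 0 0 1 0) = mk5 0 0 0 1 0) : InP g := by
  set v := g.1 (mk5 0 0 1 0 0) with hv
  have p1 : v (.inr (.inr 0)) = 0 := by
    rw [← polar_E1 v, ← h1, hv, OQ_polar g.2, polar_E1]; rfl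
  have p2 : v (.inr (.inl 0)) = 0 := by
    rw [← polar_F1 v, ← h2, hv, OQ_polar g.2, polar_F1]; rfl
  have hvQ : oddQF 2 F v = 0 := by
    rw [hv, g.2, Q_mk5]; simp
  have hv0 : v ≠ 0 := by
    rw [hv]
    intro h
    have := (LinearEquiv.map_eq_zero_iff g.1).mp h
    rw [mk5_eq_zero_iff] at this
    exact one_ne_zero this.2.2.1
  have hv' := eq_mk5 v
  rw [p1, p2] at hv'
  rw [hv', Q_mk5] at hvQ
  obtain ⟨a, a1, a2, a3⟩ := T3 (v (.inl ())) (v (.inr (.inl 1))) (v (.inr (.inr 1)))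
    (by rw [← hv']; exact hv0) (by linear_combination hvQ)
  apply InP_of_mul a
  apply L4
  · exact inv_mul_apply_of a g _ (a1.trans h1.symm)
  · exact inv_mul_apply_of a g _ (a2.trans h2.symm)
  · exact inv_mul_apply_of a g _ (a3.trans hv'.symm)

theorem L2 (g : O5) (h1 : g.1 (mk5 0 1 0 0 0) = mk5 0 1 0 0 0) : InP g := by
  set v := g.1 (mk5 0 0 0 1 0) with hv
  have p1 : v (.inr (.inr 0)) = 1 := by
    rw [← polar_E1 v, ← h1, hv, OQ_polar g.2, polar_E1]; rfl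
  have hvQ : oddQF 2 F v = 0 := by
    rw [hv, g.2, Q_mk5]; simp
  have hv' := eq_mk5 v
  rw [p1] at hv'
  rw [hv', Q_mk5] at hvQ
  obtain ⟨a, a1, a2⟩ := T2 (v (.inl ())) (v (.inr (.inl 0))) (v (.inr (.inl 1))) (v (.inr (.inr 1)))
    (by linear_combination hvQ)
  apply InP_of_mul a
  apply L3
  · exact inv_mul_apply_of a g _ (a1.trans h1.symm)
  · exact inv_mul_apply_of a g _ (a2.trans hv'.symm)

theorem O5_decomp (g : O5) : InP g := by
  have hvQ : oddQF 2 F (g.1 (mk5 0 1 0 0 0)) = 0 := by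
    rw [g.2, Q_mk5]; simp
  have hv0 : g.1 (mk5 0 1 0 0 0) ≠ 0 := by
    intro h
    have := (LinearEquiv.map_eq_zero_iff g.1).mp h
    rw [mk5_eq_zero_iff] at this
    exact one_ne_zero this.2.1
  obtain ⟨a, ha⟩ := T1 _ hv0 hvQ
  apply InP_of_mul a
  apply L2
  exact inv_mul_apply_of a g _ ha

end Cfsg.Agent.Lib.Helper14
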