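import Mathlib
import Cfsg.Agent.Lib.Helper14.Omega5Dec
import Cfsg.Agent.Lib.Helper5.SpSimple

/-! `PΩ₅(F) ≃* PSp₄(F)` for every field with more than two elements. -/

set_option autoImplicit false

namespace Cfsg.Agent.Lib.Helper14

open Matrix Cfsg.Agent.Lib.Helper44 Cfsg.Agent.Lib.Helper13 Cfsg.Agent.Lib.Helper5
open scoped commutatorElement

variable {F : Type*} [Field F]

local notation "W" => Matrix (Fin 4) (Fin 4) F
local notation "V5" => (Unit ⊕ (Fin 2 ⊕ Fin 2) → F)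
local notation "O5" => OQ (oddQF 2 F)
local notation "Sp" => Matrix.symplecticGroup (Fin 2) F

theorem sp4_perfect (hF : ∃ a : F, a ≠ 0 ∧ a ≠ 1) : commutator Sp = ⊤ := by
  by_cases h : ∃ a : F, a ≠ 0 ∧ a ^ 2 ≠ 1
  · obtain ⟨a, ha, ha2⟩ := h
    exact sp_commutator_eq_top_of_sq_ne_one a ha ha2
  · push Not at h
    obtain ⟨a, ha, ha1⟩ := hF
    have h1 := h a ha
    have h2 : (2 : F) ≠ 0 := by
      intro h20
      apply ha1
      have : (a - 1) ^ 2 = 0 := by linear_combination h1 - a * h20 + h20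
      have := pow_eq_zero_iff (two_ne_zero) |>.mp this
      linear_combination this
    exact sp_normal_eq_top _ (eL 0) (eL_ne_zero _) (fun c =>
      tv_mem_commutator_of_two h2 0 1 (by simp) c)

theorem comm_central_left {G : Type*} [Group G] (z x y : G) (hz : ∀ g, z * g = g * z) :
    ⁅z * x, y⁆ = ⁅x, y⁆ := by
  rw [commutatorElement_def, commutatorElement_def]
  calc z * x * y * (z * x)⁻¹ * y⁻¹ = z * (x * y * x⁻¹) * z⁻¹ * y⁻¹ := by group
    _ = (x * y * x⁻¹) * z * z⁻¹ * y⁻¹ := by rw [hz]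
    _ = _ := by group

theorem comm_central_right {G : Type*} [Group G] (z x y : G) (hz : ∀ g, z * g = g * z) :
    ⁅x, z * y⁆ = ⁅x, y⁆ := by
  rw [commutatorElement_def, commutatorElement_def]
  calc x * (z * y) * x⁻¹ * (z * y)⁻¹ = (x * z) * (y * x⁻¹ * y⁻¹) * z⁻¹ := by group
    _ = z * (x * (y * x⁻¹ * y⁻¹)) * z⁻¹ := by rw [← hz x]; group
    _ = (x * (y * x⁻¹ * y⁻¹)) * z * z⁻¹ := by rw [hz]
    _ = _ := by group

theorem rho5_spec (a : Sp) (v : V5) :
    e5 ((rho5 a : V5 ≃ₗ[F] V5) v) = (j5 a : W) * e5 v * (j5 a : W)ᵀ :=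
  liftOQ_spec _ _ _ _ _ _ _ _ a v

/-- elements of `GSp₄` with multiplier one come from `Sp₄` -/
theorem rhoG_mem_range (a : GSp F) (ha : a.1.2 = 1) : rhoG a ∈ (rho5 (F := F)).range := by
  have h := a.2
  rw [mem_GSp, ha, Units.val_one, one_smul] at h
  refine ⟨mkSp (a.1.1 : W) h, ?_⟩
  apply Subtype.ext
  ext v : 1
  apply e5_injective
  rw [rho5_spec, rhoG_spec, j5_mkSp, ha]
  simp

theorem commutator_O5_le : commutator O5 ≤ (rho5 (F := F)).range := by
  rw [commutator_def, Subgroup.commutator_le]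
  intro x _ y _
  have key : ∀ a b : GSp F, ⁅rhoG a, rhoG b⁆ ∈ (rho5 (F := F)).range := by
    intro a b
    rw [← map_commutatorElement]
    apply rhoG_mem_range
    show (⁅a, b⁆ : GSp F).1.2 = 1
    have : (⁅a, b⁆ : GSp F).1.2 = ⁅a.1.2, b.1.2⁆ := rfl
    rw [this, commutatorElement_eq_one_iff_mul_comm, mul_comm]
  obtain ⟨a, ha | ha⟩ := O5_decomp x <;> obtain ⟨b, hb | hb⟩ := O5_decomp y <;> rw [ha, hb]
  · exact key a b
  · rw [comm_central_right _ _ _ negO_comm]; exact key a b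
  · rw [comm_central_left _ _ _ negO_comm]; exact key a b
  · rw [comm_central_left _ _ _ negO_comm, comm_central_right _ _ _ negO_comm]; exact key a b

theorem rho5_ker_le (hF : ∃ a : F, a ≠ 0 ∧ a ≠ 1) : (rho5 (F := F)).ker ≤ Subgroup.center Sp := by
  rcases sp_normal_le_center_or (rho5 (F := F)).ker with h | h
  · exact h
  · exfalso
    rw [sp4_perfect hF] at h
    have h1 : xs 7 (1 : F) ∈ (rho5 (F := F)).ker := h (Subgroup.mem_top _)
    rw [MonoidHom.mem_ker, rho5_eq_one_iff] at h1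
    have h2 := h1 (mk5 0 0 0 1 0)
    rw [j5_xs, e5_mk5] at h2
    have h3 := congrFun (congrFun h2 0) 3
    simp [rootMat, Matrix.mul_apply, Fin.sum_univ_four] at h3

/-- `PΩ₅(F) ≃* PSp₄(F)`. -/
theorem pomega5_equiv_psp (hF : ∃ a : F, a ≠ 0 ∧ a ≠ 1) :
    Nonempty (Cfsg.POmega F (Cfsg.quadFormOdd 2 F) ≃* Cfsg.PSp 2 F) := by
  have hperf := sp4_perfect hF
  have hP : Group.IsPerfect Sp := ⟨hperf⟩
  rw [← oddQF_coe]
  have hρ : ∀ a, rho5 (F := F) a ∈ commutator O5 :=
    fun a => map_mem_commutator _ (by rw [hperf]; exact Subgroup.mem_top a)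
  let φ : Sp →* Cfsg.Omega F ⇑(oddQF 2 F) :=
    ((isoEquiv (oddQF 2 F)).symm.toMonoidHom.comp rho5).codRestrict _ (fun a => by
      rw [mem_Omega_iff]
      simpa using hρ a)
  have hker : φ.ker = (rho5 (F := F)).ker := by
    ext a
    rw [MonoidHom.mem_ker, MonoidHom.mem_ker]
    constructor
    · intro h
      have h' : (isoEquiv (oddQF 2 F)).symm (rho5 a) = 1 := congrArg Subtype.val h
      simpa using h'
    · intro h
      apply Subtype.ext
      show (isoEquiv (oddQF 2 F)).symm (rho5 a) = 1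
      rw [h, map_one]
  have hsurj : Function.Surjective φ := by
    intro ω
    have h1 := (mem_Omega_iff (oddQF 2 F) ω.1).mp ω.2
    obtain ⟨a, ha⟩ := commutator_O5_le h1
    refine ⟨a, ?_⟩
    apply Subtype.ext
    show (isoEquiv (oddQF 2 F)).symm (rho5 a) = ω.1
    rw [ha]
    simp
  refine pquot_equiv φ hsurj (QuotientGroup.mk' (Subgroup.center Sp))
    (QuotientGroup.mk'_surjective _) hP.center_quotient_center_eq_bot ?_ ?_
  · rw [hker, QuotientGroup.ker_mk']
    exact rho5_ker_le hF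
  · rw [QuotientGroup.ker_mk']

end Cfsg.Agent.Lib.Helper14
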