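import Mathlib
import Cfsg.Prelude.Def_ClassicalGeometry
import Cfsg.Agent.Lib.Helper14.Orth

set_option autoImplicit false

namespace Cfsg.Agent.Lib.Helper14

open Matrix

variable {ι : Type} [Fintype ι] [DecidableEq ι] {F : Type*} [Field F]

theorem det_reflectionMatrix (Q : QuadraticForm F (ι → F)) (v : ι → F) (hv : Q v ≠ 0) :
    (Cfsg.reflectionMatrix (⇑Q) v).det = -1 := by
  have h : Cfsg.reflectionMatrix (⇑Q) v
      = 1 + replicateCol Unit (-(Q v)⁻¹ • v) * replicateRow Unit (Cfsg.polarVec (⇑Q) v) := by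
    rw [← Matrix.vecMulVec_eq, Cfsg.reflectionMatrix, sub_eq_add_neg]
    congr 1
    ext i j
    simp [vecMulVec_apply, mul_assoc]
  rw [h, det_one_add_replicateCol_mul_replicateRow, dotProduct_smul, polarVec_dotProduct,
    QuadraticMap.polar_self]
  simp only [smul_eq_mul, nsmul_eq_mul, Nat.cast_ofNat]
  field_simp
  ring

theorem mem_specialIsometryGroup_iff {Q : (ι → F) → F} (g : ↥(Cfsg.isometryGroup F Q)) :
    g ∈ Cfsg.specialIsometryGroup F Q ↔ (isoMat g).det = 1 := by
  rw [Cfsg.specialIsometryGroup, MonoidHom.mem_ker]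
  constructor
  · intro h
    have := congrArg Units.val h
    simpa using this
  · intro h
    apply Units.ext
    simpa using h

end Cfsg.Agent.Lib.Helper14
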