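import Mathlib
import Cfsg.Agent.Lib.Helper14.DiscClass

/-! Orthonormal bases for non-alternating symmetric forms over finite fields of characteristic 2. -/

set_option autoImplicit false

namespace Cfsg.Agent.Lib.Helper14

open Module LinearMap

universe u v

theorem mem_orthogonal_span_singleton {F V : Type*} [Field F] [AddCommGroup V] [Module F V]
    (B : LinearMap.BilinForm F V) (v y : V) :
    y ∈ B.orthogonal (Submodule.span F {v}) ↔ B v y = 0 := by
  constructor
  · intro h
    exact h v (Submodule.mem_span_singleton_self v)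
  · intro h x hx
    obtain ⟨a, rfl⟩ := Submodule.mem_span_singleton.mp hx
    show B (a • v) y = 0
    rw [map_smul, LinearMap.smul_apply, h, smul_zero]

theorem exists_orthonormal_family_char_two {F : Type u} [Field F] [Finite F] [CharP F 2] (n : ℕ) :
    ∀ {V : Type v} [AddCommGroup V] [Module F V] [FiniteDimensional F V]
      (B : LinearMap.BilinForm F V) (_ : B.IsSymm) (_ : B.Nondegenerate) (_ : finrank F V = n)
      (_ : n = 0 ∨ ∃ v : V, B v v ≠ 0),
      ∃ b : Fin n → V, ∀ i j, B (b i) (b j) = if i = j then 1 else 0 := by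
  have hsqrt : ∀ c : F, ∃ s : F, c = s * s := by
    intro c
    have : Fintype F := Fintype.ofFinite F
    exact FiniteField.isSquare_of_char_two (ringChar.eq F 2) c
  have h11 : (1 : F) + 1 = 0 := CharTwo.add_self_eq_zero 1
  induction n with
  | zero =>
    intro V _ _ _ B _ _ _ _
    exact ⟨Fin.elim0, fun i => i.elim0⟩
  | succ n ih =>
    intro V _ _ _ B hS hB hdim hna
    have hsymm : ∀ a b, B a b = B b a := fun a b => hS.eq a b
    obtain ⟨v₀, hv₀⟩ : ∃ v : V, B v v ≠ 0 := by
      rcases hna with h | h
      · omega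
      · exact h
    -- a vector of norm one
    obtain ⟨v, hv⟩ : ∃ v : V, B v v = 1 := by
      obtain ⟨s, hs⟩ := hsqrt (B v₀ v₀)⁻¹
      refine ⟨s • v₀, ?_⟩
      simp only [map_smul, LinearMap.smul_apply, smul_eq_mul]
      rw [← mul_assoc, ← hs, inv_mul_cancel₀ hv₀]
    -- improve it so that the orthogonal complement is again non-alternating
    obtain ⟨v, hv, hgood⟩ : ∃ v : V, B v v = 1 ∧
        (n = 0 ∨ ∃ z : V, B v z = 0 ∧ B z z ≠ 0) := by
      by_cases hn : n = 0
      · exact ⟨v, hv, Or.inl hn⟩
      by_cases hz : ∃ z : V, B v z = 0 ∧ B z z ≠ 0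
      · exact ⟨v, hv, Or.inr hz⟩
      push Not at hz
      have hv1 : B v v ≠ 0 := by rw [hv]; exact one_ne_zero
      obtain ⟨-, hn₁, hf₁, -⟩ := anisotropic_split B hS hB v hv1
      have hpos : 0 < finrank F (B.orthogonal (Submodule.span F {v})) := by omega
      obtain ⟨e, he⟩ : ∃ e : B.orthogonal (Submodule.span F {v}), e ≠ 0 := by
        have := Module.finrank_pos_iff_exists_ne_zero.mp hpos
        exact this
      obtain ⟨f, hf⟩ : ∃ f : B.orthogonal (Submodule.span F {v}),
          (B.restrict (B.orthogonal (Submodule.span F {v}))) e f ≠ 0 := by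
        by_contra hcon
        push Not at hcon
        exact he (hn₁.1 e hcon)
      have hef : B (e : V) (f : V) ≠ 0 := hf
      have hve : B v (e : V) = 0 := (mem_orthogonal_span_singleton B v _).mp e.2
      have hvf : B v (f : V) = 0 := (mem_orthogonal_span_singleton B v _).mp f.2
      have hee : B (e : V) (e : V) = 0 := hz _ hve
      have hff : B (f : V) (f : V) = 0 := hz _ hvf
      refine ⟨v + (e : V), ?_, Or.inr ⟨v + (B (e : V) (f : V))⁻¹ • (f : V), ?_, ?_⟩⟩
      · simp only [map_add, LinearMap.add_apply]
        rw [hv, hve, hsymm (e : V) v, hve, hee]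
        simp
      · simp only [map_add, LinearMap.add_apply, map_smul, smul_eq_mul]
        rw [hv, hvf, hsymm (e : V) v, hve, zero_add, inv_mul_cancel₀ hef]
        simpa using h11
      · simp only [map_add, LinearMap.add_apply, map_smul, smul_eq_mul, LinearMap.smul_apply]
        rw [hv, hvf, hsymm (f : V) v, hvf, hff]
        simp
    have hv1 : B v v ≠ 0 := by rw [hv]; exact one_ne_zero
    obtain ⟨-, hn₁, hf₁, -⟩ := anisotropic_split B hS hB v hv1
    obtain ⟨b', hb'⟩ := ih (B.restrict (B.orthogonal (Submodule.span F {v}))) (hS.restrict _) hn₁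
      (by omega) (by
        rcases hgood with h | ⟨z, hz1, hz2⟩
        · exact Or.inl h
        · exact Or.inr ⟨⟨z, (mem_orthogonal_span_singleton B v z).mpr hz1⟩, hz2⟩)
    have hvb : ∀ i, B v (b' i : V) = 0 := fun i =>
      (mem_orthogonal_span_singleton B v _).mp (b' i).2
    refine ⟨Fin.cons v (fun i => (b' i : V)), ?_⟩
    intro i j
    refine Fin.cases ?_ (fun i => ?_) i <;> refine Fin.cases ?_ (fun j => ?_) j
    · simpa using hv
    · simp only [Fin.cons_zero, Fin.cons_succ]
      rw [hvb j, if_neg (Fin.succ_ne_zero j).symm]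
    · simp only [Fin.cons_zero, Fin.cons_succ]
      rw [hsymm, hvb i, if_neg (Fin.succ_ne_zero i)]
    · simp only [Fin.cons_succ, Fin.succ_inj]
      exact hb' i j

/-- A family with Gram matrix the identity is linearly independent. -/
theorem linearIndependent_of_orthonormal {F V ι : Type*} [Field F] [AddCommGroup V] [Module F V]
    [DecidableEq ι] (B : LinearMap.BilinForm F V) (b : ι → V)
    (hb : ∀ i j, B (b i) (b j) = if i = j then 1 else 0) : LinearIndependent F b := by
  rw [linearIndependent_iff']
  intro s g hg i hi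
  have := congrArg (fun x => B x (b i)) hg
  simp only [map_sum, LinearMap.sum_apply, map_smul, LinearMap.smul_apply, hb, smul_eq_mul,
    mul_ite, mul_one, mul_zero, Finset.sum_ite_eq', hi, if_true] at this
  simpa using this

end Cfsg.Agent.Lib.Helper14
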